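import Cfsg.Agent.GeomClasses.MaxList.U3.Data
import Cfsg.Agent.GeomClasses.MaxList.UExcl
import Cfsg.Agent.GeomClasses.MaxList.USympSmall
import Cfsg.Agent.GeomClasses.UnitaryEigenFrame

/-! # Normalisers of extraspecial groups of order 27 over twenty-five elements are not maximal -/

set_option autoImplicit false
set_option maxRecDepth 10000
set_option maxHeartbeats 1000000

namespace Cfsg.Agent.GeomClasses.MaxList.U3

open Matrix Cfsg.Geo Cfsg.Agent.GeomClasses.Unitary

/-- The elements of the standard extraspecial group. -/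
def rList : List M3 :=
  [((1, 0, 0), (0, 1, 0), (0, 0, 1)),
    ((0, 0, 1), (1, 0, 0), (0, 1, 0)),
    ((0, 1, 0), (0, 0, 1), (1, 0, 0)),
    ((1, 0, 0), (0, 12, 0), (0, 0, 17)),
    ((0, 0, 1), (12, 0, 0), (0, 17, 0)),
    ((0, 1, 0), (0, 0, 12), (17, 0, 0)),
    ((1, 0, 0), (0, 17, 0), (0, 0, 12)),
    ((0, 0, 1), (17, 0, 0), (0, 12, 0)),
    ((0, 1, 0), (0, 0, 17), (12, 0, 0)),
    ((12, 0, 0), (0, 12, 0), (0, 0, 12)),
    ((0, 0, 12), (12, 0, 0), (0, 12, 0)),
    ((0, 12, 0), (0, 0, 12), (12, 0, 0)),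
    ((12, 0, 0), (0, 17, 0), (0, 0, 1)),
    ((0, 0, 12), (17, 0, 0), (0, 1, 0)),
    ((0, 12, 0), (0, 0, 17), (1, 0, 0)),
    ((12, 0, 0), (0, 1, 0), (0, 0, 17)),
    ((0, 0, 12), (1, 0, 0), (0, 17, 0)),
    ((0, 12, 0), (0, 0, 1), (17, 0, 0)),
    ((17, 0, 0), (0, 17, 0), (0, 0, 17)),
    ((0, 0, 17), (17, 0, 0), (0, 17, 0)),
    ((0, 17, 0), (0, 0, 17), (17, 0, 0)),
    ((17, 0, 0), (0, 1, 0), (0, 0, 12)),
    ((0, 0, 17), (1, 0, 0), (0, 12, 0)),
    ((0, 17, 0), (0, 0, 1), (12, 0, 0)),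
    ((17, 0, 0), (0, 12, 0), (0, 0, 1)),
    ((0, 0, 17), (12, 0, 0), (0, 1, 0)),
    ((0, 17, 0), (0, 0, 12), (1, 0, 0))]

/-- A cube root of unity. -/
def omC : ℕ := 12
/-- The diagonal generator. -/
def xC : M3 := ((1, 0, 0), (0, omC, 0), (0, 0, mulC 5 omC omC))
/-- The cyclic generator. -/
def yC : M3 := ((0, 0, 1), (1, 0, 0), (0, 1, 0))
/-- Sum of matrices of codes. -/
def addM (p : ℕ) (A B : M3) : M3 :=
  ((addC p A.1.1 B.1.1, addC p A.1.2.1 B.1.2.1, addC p A.1.2.2 B.1.2.2),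
   (addC p A.2.1.1 B.2.1.1, addC p A.2.1.2.1 B.2.1.2.1, addC p A.2.1.2.2 B.2.1.2.2),
   (addC p A.2.2.1 B.2.2.1, addC p A.2.2.2.1 B.2.2.2.1, addC p A.2.2.2.2 B.2.2.2.2))
/-- A fixed vector of an element of order three. -/
def fixVec (x : M3) : V3 :=
  let P := addM 5 oneC (addM 5 x (mmC 5 x x))
  if leadC (colC P 0) = 0 then (if leadC (colC P 1) = 0 then colC P 2 else colC P 1) else colC P 0

/-- The inverse determinant is a cube. -/
def cubeDet (A : M3) : Bool :=
  (List.range 25).any fun l => mulC 5 (mulC 5 l (mulC 5 l l)) (detC 5 A) == 1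

theorem extra5_table : rList.all (fun x => rList.all fun y =>
    !(mmC 5 x y == smC 5 omC (mmC 5 y x) &&
      cubeDet (colsC (fixVec x) (mvC 5 y (fixVec x)) (mvC 5 y (mvC 5 y (fixVec x))))) || (leadC (fixVec x) != 0 &&
      chk 5 inv5 (maskOf extra5Reps) extra5Reps (colsC (fixVec x) (mvC 5 y (fixVec x)) (mvC 5 y (mvC 5 y (fixVec x)))))) = true := by
  decide +kernel

theorem fixVec_table : rList.all (fun x => rList.all fun y =>
    !(mmC 5 x y == smC 5 omC (mmC 5 y x)) || leadC (fixVec x) != 0) = true := by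
  decide +kernel

theorem fixVec_ne (x : M3) (hx : x ∈ rList) (y : M3) (hy : y ∈ rList) (h : mmC 5 x y = smC 5 omC (mmC 5 y x)) :
    leadC (fixVec x) ≠ 0 := by
  have := List.all_eq_true.mp (List.all_eq_true.mp fixVec_table x hx) y hy
  rw [h, beq_self_eq_true, Bool.not_true, Bool.false_or, bne_iff_ne] at this
  exact this

theorem rList_form : rList = ([1, omC, mulC 5 omC omC].flatMap fun l =>
    [oneC, xC, mmC 5 xC xC].flatMap fun P => [oneC, yC, mmC 5 yC yC].map fun Q => smC 5 l (mmC 5 P Q)) := by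
  decide +kernel

theorem rList_facts : rList.Nodup ∧ rList.length = 27 ∧ omC ≠ 1 ∧ omC < 5 * 5 ∧ mulC 5 omC (mulC 5 omC omC) = 1 ∧
    (rList.all fun A => [A.1.1, A.1.2.1, A.1.2.2, A.2.1.1, A.2.1.2.1, A.2.1.2.2, A.2.2.1, A.2.2.2.1, A.2.2.2.2].all
      fun x => decide (x < 25)) = true ∧
    mmC 5 xC yC = smC 5 omC (mmC 5 yC xC) ∧ (rList.all fun A => mmC 5 extra5G xC != mmC 5 A extra5G) = true := by
  decide +kernel

theorem extra5_facts : chk 5 inv5 (maskOf extra5Reps) extra5Reps extra5G = true ∧ gramC 5 extra5G = oneC ∧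
    detC 5 extra5G = 1 ∧ gramC 5 extra5S = oneC ∧ detC 5 extra5S = 1 ∧ extra5V ∈ extra5Reps ∧
    extra5Reps.all (fun c => indepC 5 (mvC 5 extra5S (decV 5 extra5V)) (decV 5 c)) = true := by
  decide +kernel

variable {F : Type*} [Field F] [Fintype F]

/-- The normaliser of an extraspecial group of order 27 is not maximal over twenty-five elements. -/
theorem extra_five (hF : Fintype.card F = 5 ^ 2) {H : Subgroup (GL (Fin 3) F)}
    (hH : IsMaximalIn (Cfsg.GU 3 F 5 ⊓ specialLinear (Fin 3) F) H) {R : Subgroup (GL (Fin 3) F)}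
    (hst : IsSymplecticTypeGroup 3 R) (habs : ActsAbsolutelyIrreducibly (matrixSet R))
    (hsim : R ≤ similarityGroup (Cfsg.hermForm 3 F 5)) (hR : Nat.card R = 27)
    (hc : Nat.card (Subgroup.center R) = 3) (hle : H ≤ subgroupNormalizer R) : False := by
  classical
  obtain ⟨C⟩ := exists_coord hF (Or.inr rfl)
  obtain ⟨hnd, hlen, hw1, hwlt, hw3, hsmall, hxy, hGout⟩ := rList_facts
  have hexp : Monoid.exponent R = 3 := hst.exponent_eq.trans (by norm_num)
  have hRU : R ≤ Cfsg.GU 3 F 5 := le_GU_of_similar hF (n := 3) (by norm_num) (r := 3) (by decide) hsim hexp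
  have hpow : ∀ g ∈ R, g ^ 3 = 1 := fun g hg => by
    have := congrArg Subtype.val (Monoid.pow_exponent_eq_one (⟨g, hg⟩ : R))
    rwa [hexp] at this
  haveI : CharP F 5 := C.charP
  have h3 : (3 : F) ≠ 0 := fun h => by
    have h1 : ((3 : ℕ) : F) = 0 := by exact_mod_cast h
    rw [CharP.cast_eq_zero_iff F 5] at h1
    exact absurd h1 (by decide)
  set ω := C.phi omC with hω
  have hω3 : ω * (ω * ω) = 1 := by rw [← C.phi_mul, ← C.phi_mul, hw3, C.phi_one]
  have hωne : ω ≠ 1 := fun h => hw1 (C.phi_inj hwlt (by norm_num) (h.trans C.phi_one.symm))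
  have hω2ne : ω * ω ≠ 1 := fun h => hωne (by rw [h, mul_one] at hω3; exact hω3)
  have hcube : ∀ c : F, c * (c * c) = 1 → c = 1 ∨ c = ω ∨ c = ω * ω := fun c hc => by
    have hsum : ω * ω + ω + 1 = 0 :=
      (mul_eq_zero.1 (show (ω - 1) * (ω * ω + ω + 1) = 0 by linear_combination hω3)).resolve_left (sub_ne_zero.mpr hωne)
    have : (c - 1) * ((c - ω) * (c - ω * ω)) = 0 := by linear_combination hc + (c - c ^ 2) * hsum + (c - 1) * hω3
    rcases mul_eq_zero.1 this with h | h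
    · exact Or.inl (sub_eq_zero.1 h)
    rcases mul_eq_zero.1 h with h | h
    · exact Or.inr (Or.inl (sub_eq_zero.1 h))
    · exact Or.inr (Or.inr (sub_eq_zero.1 h))
  -- twisted generators
  have hfull := full_of_absIrred (n := 3) (by norm_num) habs
  have htw := USympSmall.twist_scalar (n := 3) (by norm_num) hst habs (by rw [hc]; rfl)
  obtain ⟨x, hxR, hxc⟩ : ∃ x ∈ R, x ∉ scalars (Fin 3) F := by
    by_contra hcon
    push_neg at hcon
    have : Subgroup.center R = ⊤ := eq_top_iff.mpr fun a _ => (AschRel.center_iff hfull a).mpr (hcon a a.2)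
    rw [this, Subgroup.card_top, hR] at hc
    omega
  obtain ⟨y, hyR, hyx⟩ : ∃ y ∈ R, y * x ≠ x * y := by
    by_contra hcon
    push_neg at hcon
    obtain ⟨c, hc'⟩ := hfull.comm_scalar (M := (x : Matrix (Fin 3) (Fin 3) F)) fun g hg => by
      rw [← Units.val_mul, ← Units.val_mul, hcon g hg]
    exact hxc ((mem_scalars_iff x).mpr ⟨Units.mk0 c fun h0 => x.ne_zero (by rw [hc', h0, zero_smul]), hc'⟩)
  obtain ⟨y, hyR, htwy⟩ : ∃ y ∈ R, (x : Matrix (Fin 3) (Fin 3) F) * (y : Matrix (Fin 3) (Fin 3) F) =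
      ω • ((y : Matrix (Fin 3) (Fin 3) F) * (x : Matrix (Fin 3) (Fin 3) F)) := by
    obtain ⟨s, hs⟩ := AschRel.exists_twist (htw x hxR y hyR)
    set X := (x : Matrix (Fin 3) (Fin 3) F)
    set Y := (y : Matrix (Fin 3) (Fin 3) F)
    have hX3 : X * (X * X) = 1 := by
      rw [← Units.val_mul, ← Units.val_mul, show x * (x * x) = x ^ 3 by rw [pow_three], hpow x hxR, Units.val_one]
    have h1 : X * (X * Y) = ((s : F) * s) • (Y * (X * X)) := by
      rw [hs, Matrix.mul_smul, ← mul_assoc, hs, Matrix.smul_mul, smul_smul, mul_assoc]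
    have h2 : X * (X * (X * Y)) = ((s : F) * ((s : F) * s)) • (Y * (X * (X * X))) := by
      rw [h1, Matrix.mul_smul, ← mul_assoc X Y, hs, Matrix.smul_mul, smul_smul]
      simp only [mul_assoc]
    rw [hX3, mul_one] at h2
    have hs3 : (s : F) * ((s : F) * s) = 1 := by
      rw [show X * (X * (X * Y)) = (X * (X * X)) * Y by simp only [mul_assoc], hX3, one_mul] at h2
      exact smul_left_injective F y.ne_zero (by show _ • Y = (1 : F) • Y; rw [← h2, one_smul])
    rcases hcube (s : F) hs3 with h | h | h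
    · exact absurd (Units.ext (by rw [Units.val_mul, Units.val_mul]; rw [hs, h, one_smul])) hyx
    · exact ⟨y, hyR, h ▸ hs⟩
    · refine ⟨y * y, mul_mem hyR hyR, ?_⟩
      rw [Units.val_mul, ← mul_assoc, hs, Matrix.smul_mul, mul_assoc, hs, Matrix.mul_smul, smul_smul, ← mul_assoc, h]
      congr 1
      linear_combination ω * hω3
  set X := (x : Matrix (Fin 3) (Fin 3) F) with hXdef
  set Y := (y : Matrix (Fin 3) (Fin 3) F) with hYdef
  have hY3 : Y * (Y * Y) = 1 := by
    rw [← Units.val_mul, ← Units.val_mul, show y * (y * y) = y ^ 3 by rw [pow_three], hpow y hyR, Units.val_one]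
  have hshift : ∀ (l : F) (v : Fin 3 → F), X *ᵥ v = l • v → X *ᵥ (Y *ᵥ v) = (ω * l) • (Y *ᵥ v) := fun l v hv => by
    rw [Matrix.mulVec_mulVec, htwy, Matrix.smul_mulVec, ← Matrix.mulVec_mulVec, hv, Matrix.mulVec_smul, smul_smul]
  have hYne : ∀ v : Fin 3 → F, v ≠ 0 → Y *ᵥ v ≠ 0 := fun v hv h => hv (by
    have := congrArg ((Y * Y) *ᵥ ·) h
    simpa [Matrix.mulVec_mulVec, mul_assoc, hY3] using this)
  obtain ⟨v, hv0, hv⟩ : ∃ v : Fin 3 → F, v ≠ 0 ∧ X *ᵥ v = v := by
    obtain ⟨v, l, hv0, hl, hv⟩ := exists_eigen (F := F) (n := 3) (z := 3) (by norm_num) (by norm_num)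
      (by rw [hF]; norm_num) (x := X) (by rw [← Units.val_pow_eq_pow_val, hpow x hxR, Units.val_one])
    have hl3 : l * (l * l) = 1 := by
      have h : (X * (X * X)) *ᵥ v = (l * (l * l)) • v := by
        simp only [← Matrix.mulVec_mulVec, hv, Matrix.mulVec_smul, smul_smul]
        congr 1
        ring
      rw [← Units.val_mul, ← Units.val_mul, show x * (x * x) = x ^ 3 by rw [pow_three], hpow x hxR, Units.val_one,
        Matrix.one_mulVec] at h
      exact (smul_left_injective F hv0 (by show (1 : F) • v = _; rw [one_smul]; exact h)).symm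
    rcases hcube l hl3 with rfl | rfl | rfl
    · exact ⟨v, hv0, by rwa [one_smul] at hv⟩
    · refine ⟨Y *ᵥ (Y *ᵥ v), hYne _ (hYne _ hv0), ?_⟩
      rw [hshift _ _ (hshift _ _ hv), hω3, one_smul]
    · refine ⟨Y *ᵥ v, hYne _ hv0, ?_⟩
      rw [hshift _ _ hv, hω3, one_smul]
  set v1 := Y *ᵥ v with hv1
  set v2 := Y *ᵥ v1 with hv2
  have e1 : X *ᵥ v1 = ω • v1 := by rw [hshift 1 v (by rw [one_smul]; exact hv), mul_one]
  have e2 : X *ᵥ v2 = (ω * ω) • v2 := hshift _ _ e1
  have hyv2 : Y *ᵥ v2 = v := by rw [hv2, hv1, Matrix.mulVec_mulVec, Matrix.mulVec_mulVec, mul_assoc, hY3, Matrix.one_mulVec]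
  have hsum : ω * ω + ω + 1 = 0 :=
    (mul_eq_zero.1 (show (ω - 1) * (ω * ω + ω + 1) = 0 by linear_combination hω3)).resolve_left (sub_ne_zero.mpr hωne)
  have hindep : ∀ a b c : F, a • v + b • v1 + c • v2 = 0 → a = 0 ∧ b = 0 ∧ c = 0 := by
    intro a b c h
    have h' : a • v + (b * ω) • v1 + (c * (ω * ω)) • v2 = 0 := by
      have := congrArg (X *ᵥ ·) h
      simpa [Matrix.mulVec_add, Matrix.mulVec_smul, hv, e1, e2, smul_smul] using this
    have h'' : a • v + (b * (ω * ω)) • v1 + (c * ω) • v2 = 0 := by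
      have := congrArg (X *ᵥ ·) h'
      simp only [Matrix.mulVec_add, Matrix.mulVec_smul, hv, e1, e2, smul_smul, Matrix.mulVec_zero] at this
      rw [show c * (ω * ω) * (ω * ω) = c * ω by linear_combination (c * ω) * hω3,
        show b * ω * ω = b * (ω * ω) by ring] at this
      exact this
    have k1 : ((3 : F) * a) • v = 0 := by
      have e : ((3 : F) * a) • v = (a • v + b • v1 + c • v2) + (a • v + (b * ω) • v1 + (c * (ω * ω)) • v2) +
          (a • v + (b * (ω * ω)) • v1 + (c * ω) • v2) := by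
        match_scalars <;> first | ring1 | linear_combination (-b) * hsum | linear_combination (-c) * hsum
      rw [e, h, h', h'', add_zero, add_zero]
    have k2 : ((3 : F) * b) • v1 = 0 := by
      have e : ((3 : F) * b) • v1 = (a • v + b • v1 + c • v2) + (ω * ω) • (a • v + (b * ω) • v1 + (c * (ω * ω)) • v2) +
          ω • (a • v + (b * (ω * ω)) • v1 + (c * ω) • v2) := by
        match_scalars <;> first | ring1 | linear_combination (-2 * b) * hω3 | linear_combination (-a) * hsum |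
          linear_combination (-c * ω) * hω3 - c * hsum
      rw [e, h, h', h'', smul_zero, smul_zero, add_zero, add_zero]
    have a0 : a = 0 := (mul_eq_zero.1 ((smul_eq_zero.1 k1).resolve_right hv0)).resolve_left h3
    have b0 : b = 0 := (mul_eq_zero.1 ((smul_eq_zero.1 k2).resolve_right (hYne _ hv0))).resolve_left h3
    rw [a0, b0, zero_smul, zero_smul, zero_add, zero_add] at h
    exact ⟨a0, b0, (smul_eq_zero.1 h).resolve_right (hYne _ (hYne _ hv0))⟩
  have hfixline : ∀ w : Fin 3 → F, X *ᵥ w = w → ∃ a : F, w = a • v := by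
    intro w hw
    have hli : LinearIndependent F ![v, v1, v2] := by
      rw [Fintype.linearIndependent_iff]
      intro c hc i
      obtain ⟨k0, k1, k2⟩ := hindep (c 0) (c 1) (c 2) (by simpa [Fin.sum_univ_three] using hc)
      fin_cases i <;> assumption
    let B := basisOfLinearIndependentOfCardEqFinrank hli (by simp)
    have e : w = B.repr w 0 • v + B.repr w 1 • v1 + B.repr w 2 • v2 := by
      conv_lhs => rw [← B.sum_repr w]
      simp [B, Fin.sum_univ_three]
    generalize B.repr w 0 = a, B.repr w 1 = b, B.repr w 2 = c at e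
    have h : (0 : F) • v + (b * (ω - 1)) • v1 + (c * (ω * ω - 1)) • v2 = 0 := by
      have h1 := hw
      rw [e] at h1
      simp only [Matrix.mulVec_add, Matrix.mulVec_smul, hv, e1, e2, smul_smul] at h1
      rw [← sub_eq_zero] at h1
      rw [← h1]
      module
    obtain ⟨-, hb, hc⟩ := hindep _ _ _ h
    refine ⟨a, ?_⟩
    rw [e, (mul_eq_zero.1 hb).resolve_right (sub_ne_zero.mpr hωne),
      (mul_eq_zero.1 hc).resolve_right (sub_ne_zero.mpr hω2ne), zero_smul, zero_smul, add_zero, add_zero]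
  have hxiso := mem_GU_iff.1 (hRU hxR)
  have hyiso := mem_GU_iff.1 (hRU hyR)
  have hvv : Cfsg.hermForm 3 F 5 v v ≠ 0 := by
    intro h0
    refine hv0 (nonDeg_top hF v trivial fun z _ => ?_)
    have hfix : X *ᵥ (z + X *ᵥ z + X *ᵥ (X *ᵥ z)) = z + X *ᵥ z + X *ᵥ (X *ᵥ z) := by
      have : X *ᵥ (X *ᵥ (X *ᵥ z)) = z := by
        rw [Matrix.mulVec_mulVec, Matrix.mulVec_mulVec, ← Units.val_mul, ← Units.val_mul,
          show x * x * x = x ^ 3 by rw [pow_three, mul_assoc], hpow x hxR, Units.val_one, Matrix.one_mulVec]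
      rw [Matrix.mulVec_add, Matrix.mulVec_add, this]
      abel
    obtain ⟨a, ha⟩ := hfixline _ hfix
    have k1 : Cfsg.hermForm 3 F 5 v (X *ᵥ z) = Cfsg.hermForm 3 F 5 v z := by
      conv_lhs => rw [← hv]
      exact hxiso v z
    have k2 : Cfsg.hermForm 3 F 5 v (X *ᵥ (X *ᵥ z)) = Cfsg.hermForm 3 F 5 v z := by
      conv_lhs => rw [← hv]
      rw [hxiso, k1]
    have h := congrArg (Cfsg.hermForm 3 F 5 v) ha
    rw [hh_add_right hF, hh_add_right hF, k1, k2, hh_smul_right hF, h0, mul_zero] at h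
    exact (mul_eq_zero.1 (show (3 : F) * Cfsg.hermForm 3 F 5 v z = 0 by linear_combination h)).resolve_left h3
  obtain ⟨r, hr⟩ := exists_norm hF (Cfsg.hermForm 3 F 5 v v)⁻¹ (by rw [inv_pow, hh_self_fixed hF])
  let u : Fin 3 → (Fin 3 → F) := fun i => r • ![v, v1, v2] i
  have hω6 : ∀ i : Fin 3, X *ᵥ ![v, v1, v2] i = (![1, ω, ω * ω] : Fin 3 → F) i • ![v, v1, v2] i := fun i => by
    fin_cases i <;> simp [hv, e1, e2]
  have hu : ∀ i j, Cfsg.hermForm 3 F 5 (u i) (u j) = if i = j then 1 else 0 := by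
    have hdiag : ∀ i : Fin 3, Cfsg.hermForm 3 F 5 (![v, v1, v2] i) (![v, v1, v2] i) = Cfsg.hermForm 3 F 5 v v := fun i => by
      fin_cases i
      · rfl
      · exact hyiso v v
      · exact (hyiso v1 v1).trans (hyiso v v)
    intro i j
    simp only [u, hh_smul_left hF, hh_smul_right hF]
    split_ifs with h
    · subst h
      rw [hdiag, ← mul_assoc, hr, inv_mul_cancel₀ hvv]
    · have h1 := hxiso (![v, v1, v2] i) (![v, v1, v2] j)
      rw [hω6, hω6, hh_smul_left hF, hh_smul_right hF, ← mul_assoc] at h1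
      have hne : (![1, ω, ω * ω] : Fin 3 → F) i * (![1, ω, ω * ω] : Fin 3 → F) j ^ 5 ≠ 1 := by
        fin_cases i <;> fin_cases j <;> simp at h ⊢
        · exact fun e => hω2ne (by linear_combination e - (ω * ω) * hω3)
        · exact fun e => hωne (by linear_combination e - (ω ^ 7 + ω ^ 4 + ω) * hω3)
        · exact hωne
        · exact fun e => hω2ne (by linear_combination e - (ω ^ 8 + ω ^ 5 + ω ^ 2) * hω3)
        · exact fun e => hω2ne (by linear_combination e)
        · exact fun e => hωne (by linear_combination e - (ω ^ 4 + ω) * hω3)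
      have h2 : Cfsg.hermForm 3 F 5 (![v, v1, v2] i) (![v, v1, v2] j) = 0 :=
        (mul_eq_zero.1 (show ((![1, ω, ω * ω] : Fin 3 → F) i * (![1, ω, ω * ω] : Fin 3 → F) j ^ 5 - 1) *
          Cfsg.hermForm 3 F 5 (![v, v1, v2] i) (![v, v1, v2] j) = 0 by linear_combination h1)).resolve_left
          (sub_ne_zero.mpr hne)
      rw [h2, mul_zero, mul_zero]
  obtain ⟨U, hU, hUu⟩ := UnitaryEigenFrame.exists_mem_of_frame hF hu
  have hUcol : ∀ j, (U : Matrix (Fin 3) (Fin 3) F) *ᵥ Pi.single j 1 = u j := fun j => funext fun i => by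
    rw [Matrix.mulVec_single, MulOpposite.op_one, one_smul, Matrix.col_apply, hUu]
  -- the conjugated group
  let cj : GL (Fin 3) F → Matrix (Fin 3) (Fin 3) F := fun g => ((U⁻¹ * g * U : GL (Fin 3) F) : Matrix (Fin 3) (Fin 3) F)
  have hcm : ∀ g h, cj (g * h) = cj g * cj h := fun g h => by
    simp only [cj, ← Units.val_mul]
    congr 1
    group
  have hcinj : ∀ g h, cj g = cj h → g = h := fun g h e => by
    have := Units.ext e
    simpa using this
  have hconj : ∀ (g : GL (Fin 3) F) (A : Matrix (Fin 3) (Fin 3) F),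
      (∀ j, (g : Matrix (Fin 3) (Fin 3) F) *ᵥ u j = (U : Matrix (Fin 3) (Fin 3) F) *ᵥ (A *ᵥ Pi.single j 1)) → cj g = A :=
    fun g A hgA => Matrix.ext_of_mulVec_single fun j => by
      show ((U⁻¹ * g * U : GL (Fin 3) F) : Matrix (Fin 3) (Fin 3) F) *ᵥ _ = _
      rw [Units.val_mul, Units.val_mul, ← Matrix.mulVec_mulVec, ← Matrix.mulVec_mulVec, hUcol, hgA, Matrix.mulVec_mulVec _
        ((U⁻¹ : GL (Fin 3) F) : Matrix (Fin 3) (Fin 3) F), Units.inv_mul, Matrix.one_mulVec]
  have hUsingle : ∀ (c : F) j, (U : Matrix (Fin 3) (Fin 3) F) *ᵥ Pi.single j c = c • u j := fun c j => by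
    rw [← hUcol, ← Matrix.mulVec_smul]
    congr 1
    funext i
    rw [Pi.smul_apply, Pi.single_apply, Pi.single_apply, smul_eq_mul]
    split_ifs <;> simp
  have hcx : cj x = C.ev xC := hconj _ _ fun j => by
    have e : C.ev xC *ᵥ Pi.single j 1 = Pi.single j ((![1, ω, ω * ω] : Fin 3 → F) j) := by
      funext i
      fin_cases i <;> fin_cases j <;> simp [Coord.ev, Coord.phiV, xC, C.phi_zero, C.phi_one, C.phi_mul, hω]
    rw [e, hUsingle]
    show X *ᵥ (r • _) = _
    rw [Matrix.mulVec_smul, hω6, smul_comm]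
  have hcy : cj y = C.ev yC := hconj _ _ fun j => by
    have e : C.ev yC *ᵥ Pi.single j 1 = Pi.single (j + 1) 1 := by
      funext i
      fin_cases i <;> fin_cases j <;> simp [Coord.ev, Coord.phiV, yC, C.phi_zero, C.phi_one]
    rw [e, hUsingle, one_smul]
    show Y *ᵥ (r • _) = r • _
    rw [Matrix.mulVec_smul]
    fin_cases j <;> simp [hv1.symm, hv2.symm, hyv2]
  obtain ⟨z, hzR, hcz⟩ : ∃ z ∈ R, cj z = C.phi omC • 1 := by
    refine ⟨x * y * (y * x)⁻¹, mul_mem (mul_mem hxR hyR) (inv_mem (mul_mem hyR hxR)), ?_⟩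
    have e : ((x * y * (y * x)⁻¹ : GL (Fin 3) F) : Matrix (Fin 3) (Fin 3) F) = ω • 1 := by
      rw [Units.val_mul, Units.val_mul, ← hXdef, ← hYdef, htwy, Matrix.smul_mul, ← Units.val_mul, ← Units.val_mul,
        mul_inv_cancel, Units.val_one]
    show ((U⁻¹ * _ * U : GL (Fin 3) F) : Matrix (Fin 3) (Fin 3) F) = _
    rw [Units.val_mul, Units.val_mul, e, Matrix.mul_smul, mul_one, Matrix.smul_mul, Units.inv_mul]
  have hin : ∀ A ∈ rList, ∃ g ∈ R, cj g = C.ev A := by
    intro A hA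
    rw [rList_form] at hA
    simp only [List.mem_flatMap, List.mem_map] at hA
    obtain ⟨l, hl, P, hP, Q, hQ, rfl⟩ := hA
    have hone : cj 1 = 1 := by show ((U⁻¹ * 1 * U : GL (Fin 3) F) : Matrix (Fin 3) (Fin 3) F) = 1; simp
    obtain ⟨g1, hg1, c1⟩ : ∃ g ∈ R, cj g = C.ev P := by
      simp only [List.mem_cons, List.not_mem_nil, or_false] at hP
      rcases hP with rfl | rfl | rfl
      · exact ⟨1, one_mem R, by rw [hone, C.ev_one]⟩
      · exact ⟨x, hxR, hcx⟩
      · exact ⟨x * x, mul_mem hxR hxR, by rw [hcm, hcx, C.ev_mul]⟩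
    obtain ⟨g2, hg2, c2⟩ : ∃ g ∈ R, cj g = C.ev Q := by
      simp only [List.mem_cons, List.not_mem_nil, or_false] at hQ
      rcases hQ with rfl | rfl | rfl
      · exact ⟨1, one_mem R, by rw [hone, C.ev_one]⟩
      · exact ⟨y, hyR, hcy⟩
      · exact ⟨y * y, mul_mem hyR hyR, by rw [hcm, hcy, C.ev_mul]⟩
    obtain ⟨g0, hg0, c0⟩ : ∃ g ∈ R, cj g = C.phi l • 1 := by
      simp only [List.mem_cons, List.not_mem_nil, or_false] at hl
      rcases hl with rfl | rfl | rfl
      · exact ⟨1, one_mem R, by rw [hone, C.phi_one, one_smul]⟩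
      · exact ⟨z, hzR, hcz⟩
      · exact ⟨z * z, mul_mem hzR hzR, by rw [hcm, hcz, Matrix.smul_mul, one_mul, smul_smul, C.phi_mul]⟩
    exact ⟨g0 * (g1 * g2), mul_mem hg0 (mul_mem hg1 hg2), by
      rw [hcm, hcm, c0, c1, c2, C.ev_smul, C.ev_mul, Matrix.smul_mul, one_mul]⟩
  have hevinj : ∀ A ∈ rList, ∀ B ∈ rList, C.ev A = C.ev B → A = B := by
    intro A hA B hB h
    have ha := List.all_eq_true.mp hsmall A hA
    have hb := List.all_eq_true.mp hsmall B hB
    simp only [List.all_cons, List.all_nil, Bool.and_eq_true, decide_eq_true_eq, Bool.and_true] at ha hb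
    obtain ⟨a1, a2, a3, a4, a5, a6, a7, a8, a9⟩ := ha
    obtain ⟨b1, b2, b3, b4, b5, b6, b7, b8, b9⟩ := hb
    have e := fun i j => congrFun (congrFun h i) j
    exact Prod.ext (Prod.ext (C.phi_inj a1 b1 (e 0 0)) (Prod.ext (C.phi_inj a2 b2 (e 0 1)) (C.phi_inj a3 b3 (e 0 2))))
      (Prod.ext (Prod.ext (C.phi_inj a4 b4 (e 1 0)) (Prod.ext (C.phi_inj a5 b5 (e 1 1)) (C.phi_inj a6 b6 (e 1 2))))
        (Prod.ext (C.phi_inj a7 b7 (e 2 0)) (Prod.ext (C.phi_inj a8 b8 (e 2 1)) (C.phi_inj a9 b9 (e 2 2)))))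
  choose gA hgA hgAe using hin
  have hout : ∀ g ∈ R, ∃ A ∈ rList, cj g = C.ev A := by
    intro g hg
    let φ : {A // A ∈ rList} → R := fun A => ⟨gA A.1 A.2, hgA A.1 A.2⟩
    have hφ : Function.Injective φ := fun A B h => Subtype.ext (hevinj _ A.2 _ B.2 (by
      rw [← hgAe _ A.2, ← hgAe _ B.2]
      exact congrArg cj (congrArg Subtype.val h)))
    have hcard : Nat.card {A // A ∈ rList} = Nat.card R := by
      rw [hR, Nat.card_eq_fintype_card, Fintype.card_of_subtype rList.toFinset (by simp),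
        List.toFinset_card_of_nodup hnd, hlen]
    obtain ⟨A, hA⟩ := ((Nat.bijective_iff_injective_and_card φ).mpr ⟨hφ, hcard⟩).2 ⟨g, hg⟩
    refine ⟨A.1, A.2, ?_⟩
    rw [← hgAe _ A.2]
    exact congrArg cj (congrArg Subtype.val hA).symm
  obtain ⟨k1, k2, k3, k4, k5, k6, k7⟩ := extra5_facts
  refine C.not_maximal hH hU (T := inv5) (reps := extra5Reps) (G := extra5G) (S := extra5S) (v0 := extra5V)
    ?_ k1 k2 k3 ?_ k4 k5 k6 k7
  · intro h hh w hw
    have hn := fun g hg => (Subgroup.mem_normalizer_iff.mp (hle hh) g).mp hg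
    obtain ⟨A, hA, hAe⟩ := hout _ (hn x hxR)
    obtain ⟨B, hB, hBe⟩ := hout _ (hn y hyR)
    have hAh : C.ev A * cj h = cj h * C.ev xC := by
      rw [← hAe, ← hcx, ← hcm, ← hcm]
      congr 1
      group
    have hBh : C.ev B * cj h = cj h * C.ev yC := by
      rw [← hBe, ← hcy, ← hcm, ← hcm]
      congr 1
      group
    set M := cj h
    set Mi := cj h⁻¹
    have hMM : M * Mi = 1 := by
      show cj h * cj h⁻¹ = 1
      rw [← hcm, mul_inv_cancel]
      show ((U⁻¹ * 1 * U : GL (Fin 3) F) : Matrix (Fin 3) (Fin 3) F) = 1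
      simp
    have eA : C.ev A = M * C.ev xC * Mi := by rw [← hAh, mul_assoc, hMM, mul_one]
    have eB : C.ev B = M * C.ev yC * Mi := by rw [← hBh, mul_assoc, hMM, mul_one]
    have hMM' : Mi * M = 1 := mul_eq_one_comm.mp hMM
    have htwAB : mmC 5 A B = smC 5 omC (mmC 5 B A) := by
      have e0 := congrArg C.ev hxy
      rw [C.ev_smul, C.ev_mul, C.ev_mul] at e0
      have e3 : C.ev A * C.ev B = ω • (C.ev B * C.ev A) := by
        calc C.ev A * C.ev B = M * (C.ev xC * C.ev yC) * Mi := by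
              rw [eA, eB]; simp only [mul_assoc]; rw [← mul_assoc Mi M, hMM', one_mul]
          _ = ω • (M * (C.ev yC * C.ev xC) * Mi) := by rw [e0, Matrix.mul_smul, Matrix.smul_mul]
          _ = _ := by rw [eA, eB]; simp only [mul_assoc]; rw [← mul_assoc Mi M, hMM', one_mul]
      rw [← C.ev_mul, ← C.ev_mul, hω, ← C.ev_smul] at e3
      have l1 : ∀ a b, dotC 5 a b < 5 * 5 := fun a b => addC_lt (by norm_num) _ _
      have l2 : ∀ a b, mulC 5 a b < 5 * 5 := fun a b => mulC_lt (by norm_num) _ _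
      have e := fun i j => congrFun (congrFun e3 i) j
      exact Prod.ext
        (Prod.ext (C.phi_inj (l1 _ _) (l2 _ _) (e 0 0)) (Prod.ext (C.phi_inj (l1 _ _) (l2 _ _) (e 0 1)) (C.phi_inj (l1 _ _) (l2 _ _) (e 0 2))))
        (Prod.ext (Prod.ext (C.phi_inj (l1 _ _) (l2 _ _) (e 1 0)) (Prod.ext (C.phi_inj (l1 _ _) (l2 _ _) (e 1 1)) (C.phi_inj (l1 _ _) (l2 _ _) (e 1 2))))
          (Prod.ext (C.phi_inj (l1 _ _) (l2 _ _) (e 2 0)) (Prod.ext (C.phi_inj (l1 _ _) (l2 _ _) (e 2 1)) (C.phi_inj (l1 _ _) (l2 _ _) (e 2 2)))))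
    set e0 : Fin 3 → F := Pi.single 0 1
    set f := fixVec A with hf
    obtain ⟨c, hc⟩ : ∃ c : F, C.phiV f = c • (M *ᵥ e0) := by
      set P := addM 5 oneC (addM 5 A (mmC 5 A A)) with hP
      have hPev : C.ev P = 1 + (C.ev A + C.ev A * C.ev A) := by
        have hadd : ∀ A B, C.ev (addM 5 A B) = C.ev A + C.ev B := fun A B => by
          ext i j; fin_cases i <;> fin_cases j <;> simp [Coord.ev, Coord.phiV, addM, C.phi_add]
        rw [hP, hadd, hadd, C.ev_one, C.ev_mul]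
      have hD : (1 + (C.ev xC + C.ev xC * C.ev xC)) = Matrix.diagonal ![(3 : F), 0, 0] := by
        rw [← C.ev_mul]
        ext i j
        fin_cases i <;> fin_cases j <;>
          simp [Coord.ev, Coord.phiV, xC, mmC, colC, dotC, C.phi_add, C.phi_mul, C.phi_zero, C.phi_one, ← hω]
        · norm_num
        · linear_combination hsum
        · linear_combination hsum + ω * hω3
      have hP2 : C.ev P = M * Matrix.diagonal ![(3 : F), 0, 0] * Mi := by
        rw [hPev, ← hD, mul_add, add_mul, mul_one, hMM, mul_add, add_mul, eA]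
        congr 2
        simp only [mul_assoc]
        rw [← mul_assoc Mi M, hMM', one_mul]
      have hcol : ∀ k, C.phiV (colC P k) = C.ev P *ᵥ Pi.single k 1 := fun k => by
        funext l; fin_cases k <;> fin_cases l <;> simp [Coord.ev, Coord.phiV, colC]
      have hall : ∀ k, ∃ c : F, C.phiV (colC P k) = c • (M *ᵥ e0) := fun k => by
        refine ⟨3 * (Mi *ᵥ Pi.single k 1) 0, ?_⟩
        rw [hcol, hP2, ← Matrix.mulVec_mulVec, ← Matrix.mulVec_mulVec, ← Matrix.mulVec_smul]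
        congr 1
        funext l
        rw [Matrix.mulVec_diagonal]
        fin_cases l <;> simp [e0]
      have hf' : f = colC P 0 ∨ f = colC P 1 ∨ f = colC P 2 := by
        rw [hf]; simp only [fixVec, ← hP]
        split_ifs <;> simp
      rcases hf' with h | h | h <;> rw [h] <;> exact hall _
    have hAm : ∀ z : Fin 3 → F, C.ev B *ᵥ (M *ᵥ z) = M *ᵥ (C.ev yC *ᵥ z) := fun z => by
      rw [Matrix.mulVec_mulVec, hBh, ← Matrix.mulVec_mulVec]
    have hy0 : C.ev yC *ᵥ e0 = Pi.single 1 1 ∧ C.ev yC *ᵥ Pi.single 1 1 = Pi.single 2 1 := by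
      constructor <;> funext i <;> fin_cases i <;> simp [e0, Coord.ev, Coord.phiV, yC, C.phi_zero, C.phi_one]
    have hcM : C.ev (colsC f (mvC 5 B f) (mvC 5 B (mvC 5 B f))) = c • M := by
      refine Matrix.ext_of_mulVec_single fun j => ?_
      rw [C.ev_cols, Matrix.smul_mulVec]
      have q1 : C.phiV (mvC 5 B f) = c • (M *ᵥ Pi.single 1 1) := by
        rw [← C.ev_mv, hc, Matrix.mulVec_smul, hAm, hy0.1]
      have q2 : C.phiV (mvC 5 B (mvC 5 B f)) = c • (M *ᵥ Pi.single 2 1) := by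
        rw [← C.ev_mv, q1, Matrix.mulVec_smul, hAm, hy0.2]
      rw [hc, q1, q2]
      fin_cases j <;> simp [e0]
    have hMdet : M.det = 1 := by
      show ((U⁻¹ * h * U : GL (Fin 3) F) : Matrix (Fin 3) (Fin 3) F).det = 1
      rw [Units.val_mul, Units.val_mul, Matrix.det_units_conj', mem_specialLinear_iff.mp (hH.1.le hh).2]
    have htab := List.all_eq_true.mp (List.all_eq_true.mp extra5_table A hA) B hB
    have hc0 : c ≠ 0 := by
      intro h0
      rw [h0, zero_smul] at hc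
      have hlead : leadC f ≠ 0 := fixVec_ne A hA B hB htwAB
      apply hlead
      have hz : ∀ x, x < 25 → C.phi x = 0 → x = 0 := fun x hx h => C.phi_inj hx (by norm_num) (h.trans C.phi_zero.symm)
      have hlt : f.1 < 25 ∧ f.2.1 < 25 ∧ f.2.2 < 25 := by
        have ha : ∀ a b, addC 5 a b < 25 := fun a b => addC_lt (p := 5) (by norm_num) a b
        rw [hf]; unfold fixVec; dsimp only
        split_ifs <;> exact ⟨ha _ _, ha _ _, ha _ _⟩
      simp [leadC, hz _ hlt.1 (congrFun hc 0), hz _ hlt.2.1 (congrFun hc 1), hz _ hlt.2.2 (congrFun hc 2)]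
    have hfin : M = c⁻¹ • C.ev (colsC f (mvC 5 B f) (mvC 5 B (mvC 5 B f))) := by
      rw [hcM, smul_smul, inv_mul_cancel₀ hc0, one_smul]
    have hcube3 : cubeDet (colsC f (mvC 5 B f) (mvC 5 B (mvC 5 B f))) = true := by
      obtain ⟨l, hl, hlc⟩ := C.phi_surj c⁻¹
      simp only [cubeDet, List.any_eq_true, List.mem_range, beq_iff_eq]
      refine ⟨l, hl, C.phi_inj (mulC_lt (by norm_num) _ _) (by norm_num) ?_⟩
      rw [C.phi_mul, C.phi_mul, C.phi_mul, ← C.ev_det, hlc, C.phi_one, ← hMdet, hfin, Matrix.det_smul, Fintype.card_fin]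
      ring
    rw [htwAB, beq_self_eq_true, Bool.true_and, hcube3, Bool.not_true, Bool.false_or, Bool.and_eq_true] at htab
    obtain ⟨-, hchk⟩ := htab
    show C.InS _ (M *ᵥ w)
    rw [hfin]
    exact C.chk_sound hchk (inv_ne_zero hc0) hw
  · intro h hh e
    obtain ⟨A, hA, hAe⟩ := hout _ ((Subgroup.mem_normalizer_iff.mp (hle hh) x).mp hxR)
    have e3 : cj (h * x) = cj (h * x * h⁻¹ * h) := by rw [inv_mul_cancel_right]
    rw [hcm h x, hcm (h * x * h⁻¹) h, hAe, hcx, show cj h = C.ev extra5G from e, ← C.ev_mul, ← C.ev_mul] at e3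
    have h2 := List.all_eq_true.mp hGout A hA
    rw [bne_iff_ne] at h2
    refine h2 ?_
    have l1 : ∀ a b, dotC 5 a b < 5 * 5 := fun a b => addC_lt (by norm_num) _ _
    have e' := fun i j => congrFun (congrFun e3 i) j
    exact Prod.ext
      (Prod.ext (C.phi_inj (l1 _ _) (l1 _ _) (e' 0 0)) (Prod.ext (C.phi_inj (l1 _ _) (l1 _ _) (e' 0 1)) (C.phi_inj (l1 _ _) (l1 _ _) (e' 0 2))))
      (Prod.ext (Prod.ext (C.phi_inj (l1 _ _) (l1 _ _) (e' 1 0)) (Prod.ext (C.phi_inj (l1 _ _) (l1 _ _) (e' 1 1)) (C.phi_inj (l1 _ _) (l1 _ _) (e' 1 2))))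
        (Prod.ext (C.phi_inj (l1 _ _) (l1 _ _) (e' 2 0)) (Prod.ext (C.phi_inj (l1 _ _) (l1 _ _) (e' 2 1)) (C.phi_inj (l1 _ _) (l1 _ _) (e' 2 2)))))

end Cfsg.Agent.GeomClasses.MaxList.U3
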