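import Cfsg.Agent.GeomClasses.MaxList.U

/-! # A computable model of the unitary groups of degree three over nine and twenty-five elements -/

set_option autoImplicit false

namespace Cfsg.Agent.GeomClasses.MaxList.U3

open Matrix Cfsg.Geo Cfsg.Agent.GeomClasses.Unitary

/-- A vector of codes. -/
abbrev V3 : Type := ℕ × ℕ × ℕ
/-- A matrix of codes, by rows. -/
abbrev M3 : Type := V3 × V3 × V3

/-- Product of codes: `a + p b` stands for `a + b w` with `w ^ 2 = 2`. -/
def mulC (p x y : ℕ) : ℕ :=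
  (x % p * (y % p) + 2 * (x / p * (y / p))) % p + p * ((x % p * (y / p) + x / p * (y % p)) % p)
/-- Sum of codes. -/
def addC (p x y : ℕ) : ℕ := (x % p + y % p) % p + p * ((x / p + y / p) % p)
/-- Conjugate of a code. -/
def cjC (p x : ℕ) : ℕ := x % p + p * ((x / p * (p - 1)) % p)
/-- Negative of a code. -/
def negC (p x : ℕ) : ℕ := mulC p (p - 1) x
/-- Scalar product. -/
def dotC (p : ℕ) (u v : V3) : ℕ :=
  addC p (addC p (mulC p u.1 v.1) (mulC p u.2.1 v.2.1)) (mulC p u.2.2 v.2.2)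
/-- Matrix times vector. -/
def mvC (p : ℕ) (A : M3) (v : V3) : V3 := (dotC p A.1 v, dotC p A.2.1 v, dotC p A.2.2 v)
/-- Scalar times vector. -/
def smulC (p l : ℕ) (v : V3) : V3 := (mulC p l v.1, mulC p l v.2.1, mulC p l v.2.2)
/-- A column. -/
def colC (A : M3) (j : Fin 3) : V3 :=
  match j with
  | 0 => (A.1.1, A.2.1.1, A.2.2.1)
  | 1 => (A.1.2.1, A.2.1.2.1, A.2.2.2.1)
  | 2 => (A.1.2.2, A.2.1.2.2, A.2.2.2.2)
/-- Matrix product. -/
def mmC (p : ℕ) (A B : M3) : M3 :=
  ((dotC p A.1 (colC B 0), dotC p A.1 (colC B 1), dotC p A.1 (colC B 2)),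
   (dotC p A.2.1 (colC B 0), dotC p A.2.1 (colC B 1), dotC p A.2.1 (colC B 2)),
   (dotC p A.2.2 (colC B 0), dotC p A.2.2 (colC B 1), dotC p A.2.2 (colC B 2)))
/-- Matrix with given columns. -/
def colsC (u v w : V3) : M3 := ((u.1, v.1, w.1), (u.2.1, v.2.1, w.2.1), (u.2.2, v.2.2, w.2.2))
/-- Identity matrix. -/
def oneC : M3 := ((1, 0, 0), (0, 1, 0), (0, 0, 1))
/-- Scalar times matrix. -/
def smC (p l : ℕ) (A : M3) : M3 := (smulC p l A.1, smulC p l A.2.1, smulC p l A.2.2)
/-- Hermitian product. -/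
def hC (p : ℕ) (u v : V3) : ℕ := dotC p u (cjC p v.1, cjC p v.2.1, cjC p v.2.2)
/-- Hermitian Gram matrix of the columns. -/
def gramC (p : ℕ) (A : M3) : M3 :=
  ((hC p (colC A 0) (colC A 0), hC p (colC A 0) (colC A 1), hC p (colC A 0) (colC A 2)),
   (hC p (colC A 1) (colC A 0), hC p (colC A 1) (colC A 1), hC p (colC A 1) (colC A 2)),
   (hC p (colC A 2) (colC A 0), hC p (colC A 2) (colC A 1), hC p (colC A 2) (colC A 2)))
/-- Determinant. -/
def detC (p : ℕ) (A : M3) : ℕ :=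
  addC p (addC p (addC p (addC p (addC p (mulC p (mulC p A.1.1 A.2.1.2.1) A.2.2.2.2)
    (negC p (mulC p (mulC p A.1.1 A.2.1.2.2) A.2.2.2.1))) (negC p (mulC p (mulC p A.1.2.1 A.2.1.1) A.2.2.2.2)))
    (mulC p (mulC p A.1.2.1 A.2.1.2.2) A.2.2.1)) (mulC p (mulC p A.1.2.2 A.2.1.1) A.2.2.2.1))
    (negC p (mulC p (mulC p A.1.2.2 A.2.1.2.1) A.2.2.1))
/-- Encoding of a vector. -/
def encV (p : ℕ) (v : V3) : ℕ := v.1 + p * p * (v.2.1 + p * p * v.2.2)
/-- Decoding of a vector. -/
def decV (p c : ℕ) : V3 := (c % (p * p), c / (p * p) % (p * p), c / (p * p) / (p * p))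
/-- The bit mask of a list. -/
def maskOf (l : List ℕ) : ℕ := l.foldl (fun m c => m ||| 1 <<< c) 0
/-- The first nonzero code. -/
def leadC (v : V3) : ℕ := if v.1 = 0 then (if v.2.1 = 0 then v.2.2 else v.2.1) else v.1
/-- Does the normalisation of the vector lie in the list given by its mask? -/
def memC (p T mask : ℕ) (v : V3) : Bool :=
  let l := (T >>> (5 * leadC v)) % 32
  decide (l ≠ 0) && decide (l < p * p) && mask.testBit (encV p (smulC p l v))
/-- Does the matrix preserve the points of the list? -/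
def chk (p T mask : ℕ) (reps : List ℕ) (A : M3) : Bool :=
  reps.all fun c => memC p T mask (mvC p A (decV p c))
/-- Proportionality fails. -/
def indepC (p : ℕ) (u v : V3) : Bool :=
  decide (mulC p u.1 v.2.1 ≠ mulC p u.2.1 v.1) || decide (mulC p u.1 v.2.2 ≠ mulC p u.2.2 v.1) ||
    decide (mulC p u.2.1 v.2.2 ≠ mulC p u.2.2 v.2.1)

theorem testBit_maskOf {l : List ℕ} {x : ℕ} (h : (maskOf l).testBit x = true) : x ∈ l := by
  suffices ∀ (l : List ℕ) (a : ℕ), (l.foldl (fun m c => m ||| 1 <<< c) a).testBit x = true → a.testBit x = true ∨ x ∈ l by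
    simpa using this l 0 h
  intro l
  induction l with
  | nil => intro a ha; exact Or.inl ha
  | cons c l ih =>
    intro a ha
    rcases ih _ ha with h1 | h1
    · rw [Nat.testBit_or, Bool.or_eq_true, Nat.one_shiftLeft, Nat.testBit_two_pow] at h1
      rcases h1 with h1 | h1
      · exact Or.inl h1
      · exact Or.inr (List.mem_cons.mpr (Or.inl (of_decide_eq_true h1).symm))
    · exact Or.inr (List.mem_cons.mpr (Or.inr h1))

theorem addC_lt {p : ℕ} (hp : 0 < p) (x y : ℕ) : addC p x y < p * p := by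
  have h1 : (x % p + y % p) % p < p := Nat.mod_lt _ hp
  have h2 : (x / p + y / p) % p + 1 ≤ p := Nat.mod_lt _ hp
  have h3 := Nat.mul_le_mul_left p h2
  rw [mul_add, mul_one] at h3
  unfold addC
  omega

theorem mulC_lt {p : ℕ} (hp : 0 < p) (x y : ℕ) : mulC p x y < p * p := by
  have h1 : (x % p * (y % p) + 2 * (x / p * (y / p))) % p < p := Nat.mod_lt _ hp
  have h2 : (x % p * (y / p) + x / p * (y % p)) % p + 1 ≤ p := Nat.mod_lt _ hp
  have h3 := Nat.mul_le_mul_left p h2
  rw [mul_add, mul_one] at h3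
  unfold mulC
  omega

theorem decV_encV {p : ℕ} (hp : 0 < p) {v : V3} (h1 : v.1 < p * p) (h2 : v.2.1 < p * p) :
    decV p (encV p v) = v := by
  have hn : 0 < p * p := Nat.mul_pos hp hp
  simp only [decV, encV]
  rw [Nat.add_mul_mod_self_left, Nat.mod_eq_of_lt h1, Nat.add_mul_div_left _ _ hn, Nat.div_eq_of_lt h1, zero_add,
    Nat.add_mul_mod_self_left, Nat.mod_eq_of_lt h2, Nat.add_mul_div_left _ _ hn, Nat.div_eq_of_lt h2, zero_add]

variable {F : Type*} [Field F] [Fintype F] {p : ℕ}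

/-- The data identifying a field with the model. -/
structure Coord (p : ℕ) (F : Type*) [Field F] [Fintype F] where
  w : F
  pp : p.Prime
  odd : p ≠ 2
  card : Fintype.card F = p ^ 2
  sq : w * w = 2
  conj : w ^ p = -w
  ne : w ≠ 0

theorem exists_coord (hF : Fintype.card F = p ^ 2) (hp : p = 3 ∨ p = 5) : Nonempty (Coord p F) := by
  have hpp : p.Prime := by rcases hp with rfl | rfl <;> norm_num
  haveI := Fact.mk hpp
  haveI : CharP F p := charP_of_card_eq_prime_pow hF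
  have hp0 : (p : F) = 0 := CharP.cast_eq_zero F p
  have h2 : (2 : F) ≠ 0 := by
    intro h
    have h1 : ((2 : ℕ) : F) = 0 := by exact_mod_cast h
    rw [CharP.cast_eq_zero_iff F p] at h1
    have := Nat.le_of_dvd (by norm_num) h1
    omega
  have hc : ringChar F ≠ 2 := by
    rw [ringChar.eq F p]; omega
  obtain ⟨w, hw⟩ : IsSquare (2 : F) := by
    rw [FiniteField.isSquare_iff hc h2, hF]
    rcases hp with rfl | rfl <;> push_cast at hp0
    · norm_num
      linear_combination 5 * hp0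
    · norm_num
      linear_combination 819 * hp0
  refine ⟨⟨w, hpp, by omega, hF, hw.symm, ?_, fun h => h2 (by rw [hw, h, mul_zero])⟩⟩
  rcases hp with rfl | rfl <;> push_cast at hp0
  · linear_combination (-w) * hw + w * hp0
  · linear_combination (-(w * (w * w + 2))) * hw + w * hp0

namespace Coord

variable (C : Coord p F)
include C

theorem charP : CharP F p :=
  haveI := Fact.mk C.pp
  charP_of_card_eq_prime_pow C.card

theorem p_zero : (p : F) = 0 :=
  haveI := C.charP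
  CharP.cast_eq_zero F p

theorem cast_mod (x : ℕ) : ((x % p : ℕ) : F) = x := by
  conv_rhs => rw [← Nat.mod_add_div x p]
  push_cast
  rw [C.p_zero]
  ring

/-- The element of the field with a given code. -/
def phi (x : ℕ) : F := (x : F) + C.w * ((x / p : ℕ) : F)

theorem phi_eq (a b : ℕ) (ha : a < p) : C.phi (a + p * b) = a + C.w * b := by
  have hp := C.pp.pos
  rw [phi, Nat.add_mul_div_left _ _ hp, Nat.div_eq_of_lt ha, zero_add]
  push_cast
  rw [C.p_zero]
  ring

theorem phi_expand (x : ℕ) : C.phi x = ((x % p : ℕ) : F) + C.w * ((x / p : ℕ) : F) := by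
  rw [phi, C.cast_mod]

theorem phi_zero : C.phi 0 = 0 := by simp [phi]

theorem phi_one : C.phi 1 = 1 := by
  have h := C.phi_eq 1 0 C.pp.one_lt
  simpa using h

theorem phi_mul (x y : ℕ) : C.phi (mulC p x y) = C.phi x * C.phi y := by
  rw [mulC, C.phi_eq _ _ (Nat.mod_lt _ C.pp.pos), C.cast_mod, C.cast_mod, C.phi_expand x, C.phi_expand y]
  push_cast
  linear_combination (-(((x / p : ℕ) : F) * ((y / p : ℕ) : F))) * C.sq

theorem phi_add (x y : ℕ) : C.phi (addC p x y) = C.phi x + C.phi y := by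
  rw [addC, C.phi_eq _ _ (Nat.mod_lt _ C.pp.pos), C.cast_mod, C.cast_mod, C.phi_expand x, C.phi_expand y]
  push_cast
  ring

theorem phi_neg (x : ℕ) : C.phi (negC p x) = -C.phi x := by
  have h : C.phi (p - 1) = -1 := by
    have h1 := C.phi_eq (p - 1) 0 (by have := C.pp.two_le; omega)
    rw [mul_zero, add_zero] at h1
    rw [h1, Nat.cast_sub C.pp.one_le, C.p_zero]
    simp
  rw [negC, C.phi_mul, h, neg_one_mul]

theorem phi_cj (x : ℕ) : C.phi (cjC p x) = C.phi x ^ p := by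
  haveI := C.charP
  haveI := Fact.mk C.pp
  have hn : ∀ a : ℕ, ((a : F)) ^ p = a := fun a => by
    induction a with
    | zero => simp [C.pp.ne_zero]
    | succ a ih => push_cast; rw [add_pow_char, ih, one_pow]
  rw [cjC, C.phi_eq _ _ (Nat.mod_lt _ C.pp.pos), C.cast_mod (x / p * (p - 1)), C.phi_expand x, add_pow_char, mul_pow, hn, hn,
    C.conj]
  rw [Nat.cast_mul, Nat.cast_sub C.pp.one_le, C.p_zero]
  push_cast
  ring

theorem phi_inj {x y : ℕ} (hx : x < p * p) (hy : y < p * p) (h : C.phi x = C.phi y) : x = y := by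
  haveI := C.charP
  haveI := Fact.mk C.pp
  have hn : ∀ a : ℕ, ((a : F)) ^ p = a := fun a => by
    induction a with
    | zero => simp [C.pp.ne_zero]
    | succ a ih => push_cast; rw [add_pow_char, ih, one_pow]
  have h' := congrArg (· ^ p) h
  simp only [C.phi_expand, add_pow_char, mul_pow, hn, C.conj] at h'
  rw [C.phi_expand, C.phi_expand] at h
  have h2 : (2 : F) ≠ 0 := fun h0 => by
    have h1 : ((2 : ℕ) : F) = 0 := by exact_mod_cast h0
    rw [CharP.cast_eq_zero_iff F p] at h1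
    have := Nat.le_of_dvd (by norm_num) h1
    have := C.pp.two_le
    have := C.odd
    omega
  have e1 : ((x % p : ℕ) : F) = ((y % p : ℕ) : F) := mul_left_cancel₀ h2 (by linear_combination h + h')
  have e2 : ((x / p : ℕ) : F) = ((y / p : ℕ) : F) := mul_left_cancel₀ C.ne (by linear_combination h - e1)
  rw [CharP.natCast_eq_natCast F p] at e1 e2
  have a1 : x % p = y % p := by
    rw [Nat.ModEq, Nat.mod_mod, Nat.mod_mod] at e1
    exact e1
  have a2 : x / p = y / p := by
    have hb : ∀ z, z < p * p → z / p < p := fun z hz => Nat.div_lt_of_lt_mul hz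
    rwa [Nat.ModEq, Nat.mod_eq_of_lt (hb x hx), Nat.mod_eq_of_lt (hb y hy)] at e2
  rw [← Nat.mod_add_div x p, ← Nat.mod_add_div y p, a1, a2]

theorem phi_surj (a : F) : ∃ x < p * p, C.phi x = a := by
  have hbij : Function.Bijective (fun x : Fin (p * p) => C.phi x) :=
    (Fintype.bijective_iff_injective_and_card _).mpr
      ⟨fun x y h => Fin.ext (C.phi_inj x.2 y.2 h), by rw [Fintype.card_fin, C.card, pow_two]⟩
  obtain ⟨x, hx⟩ := hbij.2 a
  exact ⟨x, x.2, hx⟩

theorem phi_ne {x : ℕ} (h0 : x ≠ 0) (hx : x < p * p) : C.phi x ≠ 0 := fun h =>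
  h0 (C.phi_inj hx (Nat.mul_pos C.pp.pos C.pp.pos) (h.trans C.phi_zero.symm))

/-- The vector with given codes. -/
def phiV (v : V3) : Fin 3 → F := ![C.phi v.1, C.phi v.2.1, C.phi v.2.2]

/-- The matrix with given codes. -/
def ev (A : M3) : Matrix (Fin 3) (Fin 3) F := Matrix.of ![C.phiV A.1, C.phiV A.2.1, C.phiV A.2.2]

theorem phi_dot (u v : V3) :
    C.phi (dotC p u v) = C.phi u.1 * C.phi v.1 + C.phi u.2.1 * C.phi v.2.1 + C.phi u.2.2 * C.phi v.2.2 := by
  rw [dotC, C.phi_add, C.phi_add, C.phi_mul, C.phi_mul, C.phi_mul]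

theorem ev_mv (A : M3) (v : V3) : C.ev A *ᵥ C.phiV v = C.phiV (mvC p A v) := by
  funext i
  fin_cases i <;> simp [ev, phiV, mvC, Matrix.mulVec, dotProduct, Fin.sum_univ_three, C.phi_dot]

theorem phiV_smul (l : ℕ) (v : V3) : C.phiV (smulC p l v) = C.phi l • C.phiV v := by
  funext i
  fin_cases i <;> simp [phiV, smulC, C.phi_mul]

theorem ev_mul (A B : M3) : C.ev (mmC p A B) = C.ev A * C.ev B := by
  ext i j
  fin_cases i <;> fin_cases j <;> simp [ev, phiV, mmC, colC, Matrix.mul_apply, Fin.sum_univ_three, C.phi_dot]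

theorem ev_smul (l : ℕ) (A : M3) : C.ev (smC p l A) = C.phi l • C.ev A := by
  ext i j
  fin_cases i <;> fin_cases j <;> simp [ev, phiV, smC, smulC, C.phi_mul]

theorem ev_one : C.ev oneC = 1 := by
  ext i j
  fin_cases i <;> fin_cases j <;> simp [ev, phiV, oneC, C.phi_one, C.phi_zero]

theorem ev_det (A : M3) : (C.ev A).det = C.phi (detC p A) := by
  simp only [detC, C.phi_add, C.phi_neg, C.phi_mul]
  rw [Matrix.det_fin_three]
  simp [ev, phiV]
  ring

theorem ev_cols (u v w : V3) (x : Fin 3 → F) :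
    C.ev (colsC u v w) *ᵥ x = x 0 • C.phiV u + x 1 • C.phiV v + x 2 • C.phiV w := by
  funext i
  fin_cases i <;> simp [ev, phiV, colsC, Matrix.mulVec, dotProduct, Fin.sum_univ_three] <;> ring

theorem herm_phiV (u v : V3) : Cfsg.hermForm 3 F p (C.phiV u) (C.phiV v) = C.phi (hC p u v) := by
  simp [Cfsg.hermForm, Fin.sum_univ_three, phiV, hC, C.phi_dot, C.phi_cj]

theorem herm_ev {A : M3} (hA : gramC p A = oneC) (x y : Fin 3 → F) :
    Cfsg.hermForm 3 F p (C.ev A *ᵥ x) (C.ev A *ᵥ y) = Cfsg.hermForm 3 F p x y := by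
  have e : colsC (colC A 0) (colC A 1) (colC A 2) = A := rfl
  have hF := C.card
  conv_lhs => rw [← e, C.ev_cols, C.ev_cols]
  simp only [gramC, oneC, Prod.mk.injEq] at hA
  obtain ⟨⟨a, b, c⟩, ⟨d, g, k⟩, l, m, o⟩ := hA
  simp only [hh_add_left hF, hh_add_right hF, hh_smul_left hF, hh_smul_right hF, C.herm_phiV, a, b, c, d, g, k, l, m,
    o, C.phi_one, C.phi_zero, mul_zero, mul_one, add_zero, zero_add]
  simp [Cfsg.hermForm, Fin.sum_univ_three]

/-- The points of a list. -/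
def InS (reps : List ℕ) (v : Fin 3 → F) : Prop := ∃ c ∈ reps, ∃ l : F, l ≠ 0 ∧ v = l • C.phiV (decV p c)

theorem inS_smul {reps : List ℕ} {v : Fin 3 → F} (h : C.InS reps v) {a : F} (ha : a ≠ 0) : C.InS reps (a • v) := by
  obtain ⟨c, hc, l, hl, rfl⟩ := h
  exact ⟨c, hc, a * l, mul_ne_zero ha hl, smul_smul _ _ _⟩

theorem chk_sound {T : ℕ} {reps : List ℕ} {A : M3} (h : chk p T (maskOf reps) reps A = true) {a : F} (ha : a ≠ 0)
    {v : Fin 3 → F} (hv : C.InS reps v) : C.InS reps ((a • C.ev A) *ᵥ v) := by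
  obtain ⟨c, hc, l, hl, rfl⟩ := hv
  rw [Matrix.smul_mulVec, Matrix.mulVec_smul, C.ev_mv, smul_smul]
  refine C.inS_smul ?_ (mul_ne_zero ha hl)
  have h1 := List.all_eq_true.mp h c hc
  simp only [memC, Bool.and_eq_true, decide_eq_true_eq] at h1
  obtain ⟨⟨hl0, hln⟩, hmem⟩ := h1
  generalize (T >>> (5 * leadC (mvC p A (decV p c)))) % 32 = m at hl0 hln hmem
  have hdec := decV_encV (p := p) C.pp.pos (v := smulC p m (mvC p A (decV p c))) (mulC_lt C.pp.pos _ _) (mulC_lt C.pp.pos _ _)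
  refine ⟨_, testBit_maskOf hmem, (C.phi m)⁻¹, inv_ne_zero (C.phi_ne hl0 hln), ?_⟩
  rw [hdec, C.phiV_smul, smul_smul, inv_mul_cancel₀ (C.phi_ne hl0 hln), one_smul]

theorem indep_sound {u v : V3} (h : indepC p u v = true) (a : F) : C.phiV u ≠ a • C.phiV v := by
  intro e
  have e0 := congrFun e 0
  have e1 := congrFun e 1
  have e2 := congrFun e 2
  simp [phiV] at e0 e1 e2
  simp only [indepC, Bool.or_eq_true, decide_eq_true_eq] at h
  have hlt := mulC_lt (p := p) C.pp.pos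
  rcases h with (h | h) | h <;> refine h (C.phi_inj (hlt _ _) (hlt _ _) ?_) <;> rw [C.phi_mul, C.phi_mul]
  · rw [e0, e1]; ring
  · rw [e0, e2]; ring
  · rw [e1, e2]; ring

/-- A group preserving a point set together with an outside element is not maximal. -/
theorem not_maximal {H : Subgroup (GL (Fin 3) F)}
    (hH : IsMaximalIn (Cfsg.GU 3 F p ⊓ specialLinear (Fin 3) F) H) {U : GL (Fin 3) F} (hU : U ∈ Cfsg.GU 3 F p)
    {T : ℕ} {reps : List ℕ} {G S : M3} {v0 : ℕ}
    (hHs : ∀ h ∈ H, ∀ v, C.InS reps v → C.InS reps (((U⁻¹ * h * U : GL (Fin 3) F) : Matrix (Fin 3) (Fin 3) F) *ᵥ v))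
    (hG : chk p T (maskOf reps) reps G = true) (hGu : gramC p G = oneC) (hGd : detC p G = 1)
    (hGout : ∀ h ∈ H, ((U⁻¹ * h * U : GL (Fin 3) F) : Matrix (Fin 3) (Fin 3) F) ≠ C.ev G)
    (hSu : gramC p S = oneC) (hSd : detC p S = 1) (hv0 : v0 ∈ reps)
    (hSout : reps.all (fun c => indepC p (mvC p S (decV p v0)) (decV p c)) = true) : False := by
  classical
  have hlift : ∀ A : M3, gramC p A = oneC → detC p A = 1 → ∃ g : GL (Fin 3) F,
      g ∈ Cfsg.GU 3 F p ⊓ specialLinear (Fin 3) F ∧ ((U⁻¹ * g * U : GL (Fin 3) F) : Matrix (Fin 3) (Fin 3) F) = C.ev A := by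
    intro A hA hd
    have hdet : (C.ev A).det = 1 := by rw [C.ev_det, hd, C.phi_one]
    let M : GL (Fin 3) F := Matrix.GeneralLinearGroup.mkOfDetNeZero (C.ev A) (by rw [hdet]; exact one_ne_zero)
    refine ⟨U * M * U⁻¹, Subgroup.mem_inf.mpr ⟨(Cfsg.GU 3 F p).mul_mem ((Cfsg.GU 3 F p).mul_mem hU
      (mem_GU_iff.2 (C.herm_ev hA) : M ∈ Cfsg.GU 3 F p)) ((Cfsg.GU 3 F p).inv_mem hU),
      conj_mem_specialLinear U (mem_specialLinear_iff.mpr hdet)⟩, ?_⟩
    rw [show U⁻¹ * (U * M * U⁻¹) * U = M by group]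
    rfl
  obtain ⟨g, hg, hgc⟩ := hlift G hGu hGd
  obtain ⟨s, hs, hsc⟩ := hlift S hSu hSd
  let N : Subgroup (GL (Fin 3) F) := Subgroup.closure ((H : Set (GL (Fin 3) F)) ∪ {g})
  have hNle : N ≤ Cfsg.GU 3 F p ⊓ specialLinear (Fin 3) F := (Subgroup.closure_le _).mpr (by
    rintro x (hx | rfl)
    · exact hH.1.le hx
    · exact hg)
  have hNst : ∀ x ∈ N, ∀ v, C.InS reps v →
      C.InS reps (((U⁻¹ * x * U : GL (Fin 3) F) : Matrix (Fin 3) (Fin 3) F) *ᵥ v) := by
    intro x hx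
    rw [← Subgroup.mem_toSubmonoid, Subgroup.closure_toSubmonoid_of_finite] at hx
    induction hx using Submonoid.closure_induction with
    | mem x hx =>
      rcases hx with hx | rfl
      · exact hHs x hx
      · intro v hv
        rw [hgc]
        simpa using C.chk_sound hG one_ne_zero hv
    | one => intro v hv; simpa using hv
    | mul x y _ _ hx hy =>
      intro v hv
      rw [show U⁻¹ * (x * y) * U = (U⁻¹ * x * U) * (U⁻¹ * y * U) by group, Units.val_mul, ← Matrix.mulVec_mulVec]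
      exact hx _ (hy v hv)
  rcases hH.2 N (fun x hx => Subgroup.subset_closure (Or.inl hx)) hNle with hN | hN
  · exact hGout g (hN ▸ Subgroup.subset_closure (Or.inr rfl)) hgc
  · obtain ⟨c, hc, l, -, hcl⟩ := hNst s (hN ▸ hs) (C.phiV (decV p v0)) ⟨v0, hv0, 1, one_ne_zero, (one_smul _ _).symm⟩
    rw [hsc, C.ev_mv] at hcl
    exact C.indep_sound (List.all_eq_true.mp hSout c hc) l hcl

end Coord

end Cfsg.Agent.GeomClasses.MaxList.U3
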