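import Cfsg.Agent.GeomClasses.MaxList.U3.Data
import Cfsg.Agent.GeomClasses.UnitaryEigenFrame

/-! # Monomial groups in degree three over twenty-five elements are not maximal -/

set_option autoImplicit false

namespace Cfsg.Agent.GeomClasses.MaxList.U3

open Matrix Cfsg.Geo Cfsg.Agent.GeomClasses.Unitary

/-- Powers of codes. -/
def powC (p x : ℕ) : ℕ → ℕ
  | 0 => 1
  | k + 1 => mulC p x (powC p x k)

/-- A monomial matrix of codes. -/
def monoC (σ : Equiv.Perm (Fin 3)) (a : Fin 3 → ℕ) : M3 :=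
  let e : Fin 3 → Fin 3 → ℕ := fun i j => if i = σ j then a j else 0
  ((e 0 0, e 0 1, e 0 2), (e 1 0, e 1 1, e 1 2), (e 2 0, e 2 1, e 2 2))

/-- The second and third coefficients that occur. -/
def monoOk (y z : ℕ) : Bool := powC 5 y 6 == 1 && powC 5 z 6 == 1 && powC 5 (mulC 5 y z) 2 == 1

theorem mono5_table : ∀ y < 25, ∀ z < 25, monoOk y z = true → ∀ σ : Equiv.Perm (Fin 3),
    chk 5 inv5 (maskOf mono5Reps) mono5Reps (monoC σ ![1, y, z]) = true := by
  decide +kernel

theorem mono5_facts : chk 5 inv5 (maskOf mono5Reps) mono5Reps mono5G = true ∧ gramC 5 mono5G = oneC ∧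
    detC 5 mono5G = 1 ∧ gramC 5 mono5S = oneC ∧ detC 5 mono5S = 1 ∧ mono5V ∈ mono5Reps ∧
    mono5Reps.all (fun c => indepC 5 (mvC 5 mono5S (decV 5 mono5V)) (decV 5 c)) = true ∧
    mono5G.1.1 ≠ 0 ∧ mono5G.1.1 < 5 * 5 ∧ mono5G.2.1.1 ≠ 0 ∧ mono5G.2.1.1 < 5 * 5 := by
  decide +kernel

variable {F : Type*} [Field F] [Fintype F]

namespace Coord

variable {p : ℕ} (C : Coord p F)
include C

theorem phi_pow (x k : ℕ) : C.phi (powC p x k) = C.phi x ^ k := by
  induction k with
  | zero => rw [powC, C.phi_one, pow_zero]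
  | succ k ih => rw [powC, C.phi_mul, ih, pow_succ']

theorem phi_code_one {x : ℕ} (hx : x < p * p) (h : C.phi x = 1) : x = 1 :=
  C.phi_inj hx (lt_of_lt_of_le C.pp.one_lt (Nat.le_mul_of_pos_right _ C.pp.pos)) (h.trans C.phi_one.symm)

theorem powC_one {x : ℕ} {k : ℕ} (h : C.phi x ^ (k + 1) = 1) : powC p x (k + 1) = 1 :=
  C.phi_code_one (mulC_lt C.pp.pos _ _) (by rw [C.phi_pow]; exact h)

end Coord

/-- An orthonormal basis along a decomposition into lines. -/
theorem exists_frame3 {q : ℕ} (hF : Fintype.card F = q ^ 2) {D : Fin 3 → Submodule F (Fin 3 → F)}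
    (hD : IsNondegenerateMDecomposition (Cfsg.hermForm 3 F q) 1 D) :
    ∃ U : GL (Fin 3) F, U ∈ Cfsg.GU 3 F q ∧
      ∀ g : GL (Fin 3) F, g ∈ decompositionStabilizer D → g ∈ Cfsg.GU 3 F q →
        ∃ (σ : Equiv.Perm (Fin 3)) (a : Fin 3 → F), (∀ i, a i * a i ^ q = 1) ∧ ∀ i j,
          ((U⁻¹ * g * U : GL (Fin 3) F) : Matrix (Fin 3) (Fin 3) F) i j = if i = σ j then a j else 0 := by
  classical
  have hgen : ∀ i, ∃ u ∈ D i, Cfsg.hermForm 3 F q u u = 1 := fun i =>
    exists_unit hF (nonDeg_of_on hF (hD.nondegenerate i)) fun h => by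
      have := hD.decomp.finrank_eq i
      rw [h, finrank_bot] at this
      omega
  choose u hu huu using hgen
  have huo : ∀ i j, Cfsg.hermForm 3 F q (u i) (u j) = if i = j then 1 else 0 := fun i j => by
    split_ifs with h
    · subst h; exact huu i
    · exact hD.orthogonal i j h _ (hu i) _ (hu j)
  have hline : ∀ i x, x ∈ D i → x = Cfsg.hermForm 3 F q x (u i) • u i := fun i x hx => by
    have hu0 : (⟨u i, hu i⟩ : D i) ≠ 0 := fun h => by
      have := huu i
      rw [show u i = 0 from congrArg Subtype.val h, hh_zero_left hF] at this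
      exact zero_ne_one this
    obtain ⟨c, hc⟩ := exists_smul_eq_of_finrank_eq_one (hD.decomp.finrank_eq i) hu0 ⟨x, hx⟩
    have e : c • u i = x := congrArg Subtype.val hc
    rw [← e, hh_smul_left hF, huu, mul_one]
  obtain ⟨U, hU, hUu⟩ := UnitaryEigenFrame.exists_mem_of_frame hF huo
  have hUcol : ∀ j, (U : Matrix (Fin 3) (Fin 3) F) *ᵥ Pi.single j 1 = u j := fun j => funext fun i => by
    rw [Matrix.mulVec_single, MulOpposite.op_one, one_smul, Matrix.col_apply, hUu]
  refine ⟨U, hU, fun g hgD hgU => ?_⟩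
  obtain ⟨σ, hσ⟩ := hgD
  let a : Fin 3 → F := fun j => Cfsg.hermForm 3 F q ((g : Matrix (Fin 3) (Fin 3) F) *ᵥ u j) (u (σ j))
  have hgu : ∀ j, (g : Matrix (Fin 3) (Fin 3) F) *ᵥ u j = a j • u (σ j) := fun j => hline _ _ (by
    rw [← hσ j]; exact ⟨u j, hu j, Matrix.toLin'_apply _ _⟩)
  refine ⟨σ, a, fun i => ?_, fun i j => ?_⟩
  · have h := mem_GU_iff.1 hgU (u i) (u i)
    rw [hgu, hh_smul_left hF, hh_smul_right hF, huu, huu, mul_one] at h
    exact h
  · have e : ((U⁻¹ * g * U : GL (Fin 3) F) : Matrix (Fin 3) (Fin 3) F) *ᵥ Pi.single j 1 = a j • Pi.single (σ j) 1 := by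
      rw [Units.val_mul, Units.val_mul, ← Matrix.mulVec_mulVec, ← Matrix.mulVec_mulVec, hUcol, hgu, ← hUcol (σ j),
        Matrix.mulVec_smul, Matrix.mulVec_mulVec, Units.inv_mul, Matrix.one_mulVec]
    have := congrFun e i
    rw [Matrix.mulVec_single, MulOpposite.op_one, one_smul, Matrix.col_apply] at this
    rw [this, Pi.smul_apply, Pi.single_apply, smul_eq_mul]
    split_ifs <;> simp

/-- The monomial group is not maximal over twenty-five elements. -/
theorem monomial_five (hF : Fintype.card F = 5 ^ 2) {H : Subgroup (GL (Fin 3) F)}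
    (hH : IsMaximalIn (Cfsg.GU 3 F 5 ⊓ specialLinear (Fin 3) F) H) {D : Fin 3 → Submodule F (Fin 3 → F)}
    (hD : IsNondegenerateMDecomposition (Cfsg.hermForm 3 F 5) 1 D) (hle : H ≤ decompositionStabilizer D) : False := by
  classical
  obtain ⟨C⟩ := exists_coord hF (Or.inr rfl)
  obtain ⟨U, hU, hmono⟩ := exists_frame3 hF hD
  obtain ⟨k1, k2, k3, k4, k5, k6, k7, g0, g0', g1, g1'⟩ := mono5_facts
  refine C.not_maximal hH hU (T := inv5) (reps := mono5Reps) (G := mono5G) (S := mono5S) (v0 := mono5V)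
    ?_ k1 k2 k3 ?_ k4 k5 k6 k7
  · intro h hh v hv
    obtain ⟨σ, a, ha, hM⟩ := hmono h (hle hh) (hH.1.le hh).1
    have hd : (∏ i, a i) ^ 2 = 1 := by
      have hdet : ((U⁻¹ * h * U : GL (Fin 3) F) : Matrix (Fin 3) (Fin 3) F).det = 1 := by
        rw [Units.val_mul, Units.val_mul, Matrix.det_units_conj', mem_specialLinear_iff.mp (hH.1.le hh).2]
      rw [Matrix.det_apply', Finset.sum_eq_single σ] at hdet
      · rw [Finset.prod_congr rfl fun i _ => (hM (σ i) i).trans (if_pos rfl)] at hdet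
        rcases Int.units_eq_one_or (Equiv.Perm.sign σ) with e | e <;> rw [e] at hdet <;> push_cast at hdet
        · rw [one_mul] at hdet; rw [hdet, one_pow]
        · linear_combination (-1 * (∏ i, a i) + 1) * hdet
      · intro τ _ hτ
        obtain ⟨i, hi⟩ : ∃ i, τ i ≠ σ i := by
          by_contra hcon
          push_neg at hcon
          exact hτ (Equiv.ext hcon)
        exact mul_eq_zero_of_right _ (Finset.prod_eq_zero (Finset.mem_univ i) ((hM _ _).trans (if_neg hi)))
      · simp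
    have h6 : ∀ i, a i ^ 6 = 1 := fun i => by rw [pow_succ', ha]
    have ha0 : a 0 ≠ 0 := fun e => by have := h6 0; rw [e] at this; simp at this
    obtain ⟨y, hy, hyv⟩ := C.phi_surj (a 1 / a 0)
    obtain ⟨z, hz, hzv⟩ := C.phi_surj (a 2 / a 0)
    rw [Fin.prod_univ_three] at hd
    have hy6 : powC 5 y 6 = 1 := C.powC_one (k := 5) (by rw [hyv, div_pow, h6, h6, div_one])
    have hz6 : powC 5 z 6 = 1 := C.powC_one (k := 5) (by rw [hzv, div_pow, h6, h6, div_one])
    have hyz : powC 5 (mulC 5 y z) 2 = 1 := C.powC_one (k := 1) (by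
      rw [C.phi_mul, hyv, hzv]
      rw [show a 1 / a 0 * (a 2 / a 0) = a 0 * a 1 * a 2 / a 0 ^ 3 by field_simp, div_pow, ← pow_mul, hd, h6, div_one])
    have hok : monoOk y z = true := by simp [monoOk, hy6, hz6, hyz]
    have hev : ((U⁻¹ * h * U : GL (Fin 3) F) : Matrix (Fin 3) (Fin 3) F) = a 0 • C.ev (monoC σ ![1, y, z]) := by
      ext i j
      rw [hM]
      fin_cases i <;> fin_cases j <;>
        simp [Coord.ev, Coord.phiV, monoC, apply_ite C.phi, C.phi_one, C.phi_zero, hyv, hzv, mul_div_cancel₀ _ ha0]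
    rw [hev]
    exact C.chk_sound (mono5_table y hy z hz hok σ) ha0 hv
  · intro h hh e
    obtain ⟨σ, a, -, hM⟩ := hmono h (hle hh) (hH.1.le hh).1
    have e0 : (if (0 : Fin 3) = σ 0 then a 0 else 0) = C.phi mono5G.1.1 := by rw [← hM, e]; rfl
    have e1 : (if (1 : Fin 3) = σ 0 then a 0 else 0) = C.phi mono5G.2.1.1 := by rw [← hM, e]; rfl
    by_cases h0 : (0 : Fin 3) = σ 0
    · rw [← h0, if_neg (by decide)] at e1
      exact C.phi_ne g1 g1' e1.symm
    · rw [if_neg h0] at e0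
      exact C.phi_ne g0 g0' e0.symm

end Cfsg.Agent.GeomClasses.MaxList.U3
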