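import Cfsg.Agent.GeomClasses.MaxList.U3.Data
import Cfsg.Agent.GeomClasses.MaxList.UExcl
import Cfsg.Agent.GeomClasses.UnitaryEigenFrame
import Cfsg.Agent.GeomClasses.SubfieldScaled

/-! # Orthogonal subgroups in degree three over nine and twenty-five elements -/

set_option autoImplicit false
set_option maxRecDepth 10000

namespace Cfsg.Agent.GeomClasses.MaxList.U3

open Matrix Cfsg.Geo Cfsg.Agent.GeomClasses.Unitary

/-- Rational vectors of norm one. -/
def unitVecs (p : ℕ) : List V3 :=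
  ((List.range (p * p * p)).map fun c => (c % p, c / p % p, c / p / p)).filter fun v => dotC p v v == 1

theorem orth5_table : (unitVecs 5).all (fun u => (unitVecs 5).all fun v => !(dotC 5 u v == 0) ||
    (unitVecs 5).all fun w => !(dotC 5 u w == 0 && dotC 5 v w == 0) ||
      chk 5 inv5 (maskOf orth5Reps) orth5Reps (colsC u v w)) = true := by
  decide +kernel

theorem orth3_table : (unitVecs 3).all (fun v =>
    (v.2.1 == 0 && v.2.2 == 0) || (v.1 == 0 && v.2.2 == 0) || (v.1 == 0 && v.2.1 == 0)) = true := by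
  decide +kernel

theorem orth5_facts : chk 5 inv5 (maskOf orth5Reps) orth5Reps orth5G = true ∧ gramC 5 orth5G = oneC ∧
    detC 5 orth5G = 1 ∧ gramC 5 orth5S = oneC ∧ detC 5 orth5S = 1 ∧ orth5V ∈ orth5Reps ∧
    orth5Reps.all (fun c => indepC 5 (mvC 5 orth5S (decV 5 orth5V)) (decV 5 c)) = true ∧
    orth5G.1.1 ≠ 0 ∧ orth5G.1.1 < 5 * 5 ∧
    (∀ a < 5, ∀ b < 5, mulC 5 orth5G.1.1 b = mulC 5 orth5G.2.1.1 a → a = 0) := by
  decide +kernel

theorem binary_table (p : ℕ) (hp : p = 3 ∨ p = 5) (a b t : ℕ) (ha : a % p ≠ 0) (hb : b % p ≠ 0) :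
    ∃ x < p, ∃ y < p, (a * x * x + b * y * y) % p = t % p := by
  have key : ∀ a b t : Fin p, a.val ≠ 0 → b.val ≠ 0 →
      ∃ x y : Fin p, (a.val * x.val * x.val + b.val * y.val * y.val) % p = t.val := by
    rcases hp with rfl | rfl <;> decide +kernel
  have hp0 : 0 < p := by rcases hp with rfl | rfl <;> norm_num
  obtain ⟨⟨x, hx⟩, ⟨y, hy⟩, h⟩ := key ⟨a % p, Nat.mod_lt _ hp0⟩ ⟨b % p, Nat.mod_lt _ hp0⟩ ⟨t % p, Nat.mod_lt _ hp0⟩ ha hb
  dsimp only at h
  refine ⟨x, hx, y, hy, ?_⟩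
  rw [← h]
  simp [Nat.add_mod, Nat.mul_mod]

variable {F : Type*} [Field F] [Fintype F] {p : ℕ}

namespace Coord

variable (C : Coord p F)
include C

theorem fixed_code {a : F} (h : a ^ p = a) : ∃ x < p, C.phi x = a ∧ (x : F) = a := by
  obtain ⟨x, hx, rfl⟩ := C.phi_surj a
  have hc := C.phi_cj x
  rw [h] at hc
  rw [C.phi_expand, C.phi_expand, cjC] at hc
  have hp := C.pp.pos
  rw [Nat.add_mul_mod_self_left, Nat.mod_mod, Nat.add_mul_div_left _ _ hp, Nat.div_eq_of_lt (Nat.mod_lt _ hp), zero_add,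
    C.cast_mod (x / p * (p - 1)), Nat.cast_mul, Nat.cast_sub C.pp.one_le, C.p_zero] at hc
  haveI := C.charP
  have h2 : (2 : F) ≠ 0 := fun h0 => by
    have h1 : ((2 : ℕ) : F) = 0 := by exact_mod_cast h0
    rw [CharP.cast_eq_zero_iff F p] at h1
    have := Nat.le_of_dvd (by norm_num) h1
    have := C.pp.two_le
    have := C.odd
    omega
  have hb : ((x / p : ℕ) : F) = 0 := by
    refine (mul_eq_zero.1 (show (2 * C.w) * ((x / p : ℕ) : F) = 0 from ?_)).resolve_left (mul_ne_zero h2 C.ne)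
    push_cast at hc
    linear_combination -hc
  rw [CharP.cast_eq_zero_iff F p] at hb
  have hlt : x / p < p := Nat.div_lt_of_lt_mul hx
  have h0 : x / p = 0 := Nat.eq_zero_of_dvd_of_lt hb hlt
  have hxp : x < p := (Nat.div_eq_zero_iff.mp h0).resolve_left C.pp.ne_zero
  refine ⟨x, hxp, rfl, ?_⟩
  rw [phi, h0]
  simp

theorem rat_cast (x : ℕ) : ((x : F)) ^ p = x := by
  haveI := C.charP
  haveI := Fact.mk C.pp
  induction x with
  | zero => simp [C.pp.ne_zero]
  | succ a ih => push_cast; rw [add_pow_char, ih, one_pow]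

theorem binary {a b t : F} (hp : p = 3 ∨ p = 5) (ha : a ^ p = a) (hb : b ^ p = b) (ht : t ^ p = t) (ha0 : a ≠ 0)
    (hb0 : b ≠ 0) : ∃ x y : F, x ^ p = x ∧ y ^ p = y ∧ a * x * x + b * y * y = t := by
  haveI := C.charP
  obtain ⟨ca, hca, -, rfl⟩ := C.fixed_code ha
  obtain ⟨cb, hcb, -, rfl⟩ := C.fixed_code hb
  obtain ⟨ct, hct, -, rfl⟩ := C.fixed_code ht
  have h1 : ca % p ≠ 0 := fun h => ha0 (by rw [← C.cast_mod, h, Nat.cast_zero])
  have h2 : cb % p ≠ 0 := fun h => hb0 (by rw [← C.cast_mod, h, Nat.cast_zero])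
  obtain ⟨x, -, y, -, h⟩ := binary_table p hp ca cb ct h1 h2
  refine ⟨x, y, C.rat_cast x, C.rat_cast y, ?_⟩
  have e := congrArg (fun m : ℕ => (m : F)) h
  simp only [C.cast_mod] at e
  push_cast at e
  exact e

/-- A subfield structure of index two has an orthonormal frame. -/
theorem exists_orth_frame (hp : p = 3 ∨ p = 5) {F₀ : Subfield F} (hc : Fintype.card F = Nat.card F₀ ^ 2)
    {P : GL (Fin 3) F} (hs : IsFormRationalStructure (Cfsg.hermForm 3 F p) F₀ 1 P) :
    ∃ U : GL (Fin 3) F, U ∈ Cfsg.GU 3 F p ∧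
      ∀ g : GL (Fin 3) F, g ∈ subfieldSubgroup F₀ P → g ∈ Cfsg.GU 3 F p →
        ∃ (l : F) (A : Matrix (Fin 3) (Fin 3) F), l ≠ 0 ∧ (∀ i j, A i j ^ p = A i j) ∧ Aᵀ * A = 1 ∧
          ((U⁻¹ * g * U : GL (Fin 3) F) : Matrix (Fin 3) (Fin 3) F) = l • A := by
  classical
  have hF := C.card
  haveI := C.charP
  haveI := Fact.mk C.pp
  have hq0 : Nat.card F₀ = p := Nat.pow_left_injective two_ne_zero (hc.symm.trans hF)
  have hfix : ∀ a : F, a ∈ F₀ → a ^ p = a := fun a ha => by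
    haveI : Fintype F₀ := Fintype.ofFinite _
    have h := FiniteField.pow_card (⟨a, ha⟩ : F₀)
    rw [← Nat.card_eq_fintype_card, hq0] at h
    exact congrArg Subtype.val h
  have hmem : ∀ a : F, a ^ p = a → a ∈ F₀ := fun a ha => by
    obtain ⟨x, -, -, rfl⟩ := C.fixed_code ha
    exact natCast_mem F₀ x
  let B : (Fin 3 → F) → (Fin 3 → F) → F := fun u v =>
    Cfsg.hermForm 3 F p ((P : Matrix (Fin 3) (Fin 3) F) *ᵥ u) ((P : Matrix (Fin 3) (Fin 3) F) *ᵥ v)
  let R : (Fin 3 → F) → Prop := fun u => ∀ i, u i ∈ F₀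
  have hB : ∀ u v, R u → R v → B u v ∈ F₀ := fun u v hu hv => by
    have := hs u v hu hv
    rwa [one_mul] at this
  have hsymm : ∀ u v, R u → R v → B v u = B u v := fun u v hu hv => by
    show Cfsg.hermForm 3 F p _ _ = _
    rw [← hh_conj hF]
    exact hfix _ (hB u v hu hv)
  have haddl : ∀ u u' v, B (u + u') v = B u v + B u' v := fun u u' v => by
    simp only [B, Matrix.mulVec_add, hh_add_left hF]
  have hsml : ∀ (a : F) u v, B (a • u) v = a * B u v := fun a u v => by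
    simp only [B, Matrix.mulVec_smul, hh_smul_left hF]
  have haddr : ∀ u v v', B u (v + v') = B u v + B u v' := fun u v v' => by
    simp only [B, Matrix.mulVec_add, hh_add_right hF]
  have hsmr : ∀ (a : F), a ∈ F₀ → ∀ u v, B u (a • v) = a * B u v := fun a ha u v => by
    simp only [B, Matrix.mulVec_smul, hh_smul_right hF, hfix a ha]
  have hRadd : ∀ u v, R u → R v → R (u + v) := fun u v hu hv i => add_mem (hu i) (hv i)
  have hRsm : ∀ (a : F) u, a ∈ F₀ → R u → R (a • u) := fun a u ha hu i => mul_mem ha (hu i)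
  have hRbasis : ∀ i, R (Pi.single i 1) := fun i j => by
    rcases eq_or_ne j i with rfl | h
    · simpa using F₀.one_mem
    · simp [Pi.single_eq_of_ne h]
  -- vectors pairing nontrivially
  have hnd : ∀ u : Fin 3 → F, u ≠ 0 → ∃ i, B u (Pi.single i 1) ≠ 0 := by
    intro u hu
    by_contra hcon
    push_neg at hcon
    have h0 : (P : Matrix (Fin 3) (Fin 3) F) *ᵥ u = 0 := by
      refine nonDeg_top hF _ trivial fun y _ => ?_
      have hy : y = (P : Matrix (Fin 3) (Fin 3) F) *ᵥ (((P⁻¹ : GL (Fin 3) F) : Matrix (Fin 3) (Fin 3) F) *ᵥ y) := by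
        rw [Matrix.mulVec_mulVec, Units.mul_inv, Matrix.one_mulVec]
      rw [hy]
      generalize ((P⁻¹ : GL (Fin 3) F) : Matrix (Fin 3) (Fin 3) F) *ᵥ y = z
      show B u z = 0
      have hz : z = z 0 • Pi.single 0 1 + z 1 • Pi.single 1 1 + z 2 • Pi.single 2 1 := by
        funext i; fin_cases i <;> simp
      rw [hz]
      have key : ∀ (a : F) i, B u (a • Pi.single i 1) = 0 := fun a i => by
        simp only [B, Matrix.mulVec_smul, hh_smul_right hF]
        rw [show Cfsg.hermForm 3 F p _ _ = B u (Pi.single i 1) from rfl, hcon i, mul_zero]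
      rw [haddr, haddr, key, key, key, add_zero, add_zero]
    apply hu
    have := congrArg (((P⁻¹ : GL (Fin 3) F) : Matrix (Fin 3) (Fin 3) F) *ᵥ ·) h0
    simpa [Matrix.mulVec_mulVec] using this
  have h2 : (2 : F) ≠ 0 := fun h0 => by
    have h1 : ((2 : ℕ) : F) = 0 := by exact_mod_cast h0
    rw [CharP.cast_eq_zero_iff F p] at h1
    have := Nat.le_of_dvd (by norm_num) h1
    rcases hp with rfl | rfl <;> omega
  -- a first anisotropic vector
  obtain ⟨v0, hv0R, hv0⟩ : ∃ v, R v ∧ B v v ≠ 0 := by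
    by_contra hcon
    push_neg at hcon
    obtain ⟨i, hi⟩ := hnd (Pi.single 0 1) (by simp)
    have h := hcon _ (hRadd _ _ (hRbasis 0) (hRbasis i))
    rw [haddl, haddr, haddr, hcon _ (hRbasis 0), hcon _ (hRbasis i), hsymm _ _ (hRbasis 0) (hRbasis i), zero_add,
      add_zero, ← two_mul] at h
    exact hi ((mul_eq_zero.1 h).resolve_left h2)
  set a := B v0 v0 with hadef
  have ha : a ∈ F₀ := hB _ _ hv0R hv0R
  obtain ⟨pr, hprd⟩ : ∃ pr : (Fin 3 → F) → (Fin 3 → F), ∀ x, pr x = x + (-(B x v0 / a)) • v0 := ⟨_, fun _ => rfl⟩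
  have hprR : ∀ x, R x → R (pr x) := fun x hx =>
    hprd x ▸ hRadd _ _ hx (hRsm _ _ (neg_mem (div_mem (hB _ _ hx hv0R) ha)) hv0R)
  have hpr0 : ∀ x, B (pr x) v0 = 0 := fun x => by
    simp only [hprd, haddl, hsml, ← hadef]
    field_simp
    ring
  -- a second anisotropic vector
  obtain ⟨v1, hv1R, hv10, hv1⟩ : ∃ v, R v ∧ B v v0 = 0 ∧ B v v ≠ 0 := by
    by_contra hcon
    push_neg at hcon
    have hz : ∀ i j, B (pr (Pi.single i 1)) (pr (Pi.single j 1)) = 0 := by
      intro i j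
      have hi := hprR _ (hRbasis i)
      have hj := hprR _ (hRbasis j)
      have h := hcon _ (hRadd _ _ hi hj) (by rw [haddl, hpr0, hpr0, add_zero])
      rw [haddl, haddr, haddr, hcon _ hi (hpr0 _), hcon _ hj (hpr0 _), hsymm _ _ hi hj, zero_add, add_zero,
        ← two_mul] at h
      exact (mul_eq_zero.1 h).resolve_left h2
    have hall : ∀ i, pr (Pi.single i 1) = 0 := fun i => by
      by_contra hne
      obtain ⟨j, hj⟩ := hnd _ hne
      refine hj ?_
      have h := hz i j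
      rw [hprd (Pi.single j 1)] at h
      rw [haddr, hsmr _ (neg_mem (div_mem (hB _ _ (hRbasis j) hv0R) ha)), hpr0, mul_zero, add_zero] at h
      exact h
    obtain ⟨i, hi⟩ : ∃ i, v0 i ≠ 0 := Function.ne_iff.mp (show v0 ≠ 0 from fun h => hv0 (by
      show B v0 v0 = 0
      simp only [B, h, Matrix.mulVec_zero, hh_zero_left hF]))
    obtain ⟨j, hji⟩ : ∃ j : Fin 3, j ≠ i := exists_ne i
    have h := congrFun (hall j) i
    simp only [hprd, Pi.add_apply, Pi.smul_apply, smul_eq_mul, Pi.single_eq_of_ne hji.symm, zero_add,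
      Pi.zero_apply] at h
    have h' : B (Pi.single j 1) v0 / a = 0 := neg_eq_zero.1 ((mul_eq_zero.1 h).resolve_right hi)
    have hj := hall j
    simp only [hprd, h', neg_zero, zero_smul, add_zero] at hj
    simpa using congrFun hj j
  set b := B v1 v1 with hbdef
  have hb : b ∈ F₀ := hB _ _ hv1R hv1R
  have h01 : B v0 v1 = 0 := by rw [hsymm _ _ hv1R hv0R]; exact hv10
  obtain ⟨pr2, hpr2d⟩ : ∃ pr2 : (Fin 3 → F) → (Fin 3 → F), ∀ x, pr2 x = pr x + (-(B (pr x) v1 / b)) • v1 :=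
    ⟨_, fun _ => rfl⟩
  have hpr2R : ∀ x, R x → R (pr2 x) := fun x hx =>
    hpr2d x ▸ hRadd _ _ (hprR x hx) (hRsm _ _ (neg_mem (div_mem (hB _ _ (hprR x hx) hv1R) hb)) hv1R)
  have hpr20 : ∀ x, B (pr2 x) v0 = 0 ∧ B (pr2 x) v1 = 0 := fun x => by
    constructor
    · simp only [hpr2d, haddl, hsml, hpr0, hv10, mul_zero, add_zero]
    · simp only [hpr2d, haddl, hsml, ← hbdef]
      field_simp
      ring
  obtain ⟨v2, hv2R, hv20, hv21, hv2⟩ : ∃ v, R v ∧ B v v0 = 0 ∧ B v v1 = 0 ∧ B v v ≠ 0 := by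
    by_contra hcon
    push_neg at hcon
    have hall : ∀ i, pr2 (Pi.single i 1) = 0 := fun i => by
      by_contra hne
      obtain ⟨j, hj⟩ := hnd _ hne
      refine hj ?_
      have hi := hpr2R _ (hRbasis i)
      have hj' := hpr2R _ (hRbasis j)
      have h := hcon _ (hRadd _ _ hi hj') (by rw [haddl, (hpr20 _).1, (hpr20 _).1, add_zero])
        (by rw [haddl, (hpr20 _).2, (hpr20 _).2, add_zero])
      rw [haddl, haddr, haddr, hcon _ hi (hpr20 _).1 (hpr20 _).2, hcon _ hj' (hpr20 _).1 (hpr20 _).2, hsymm _ _ hi hj',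
        zero_add, add_zero, ← two_mul] at h
      have h' := (mul_eq_zero.1 h).resolve_left h2
      rw [hpr2d (Pi.single j 1), hprd (Pi.single j 1)] at h'
      rw [← hprd (Pi.single j 1)] at h'
      rw [haddr, hprd (Pi.single j 1), haddr, ← hprd (Pi.single j 1), hsmr _ (neg_mem (div_mem (hB _ _ (hRbasis j) hv0R) ha)),
        hsmr _ (neg_mem (div_mem (hB _ _ (hprR _ (hRbasis j)) hv1R) hb)), (hpr20 _).1, (hpr20 _).2, mul_zero,
        mul_zero, add_zero, add_zero] at h'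
      exact h'
    have hspan : ∀ i, (Pi.single i 1 : Fin 3 → F) ∈ Submodule.span F ({v0, v1} : Set (Fin 3 → F)) := fun i => by
      rw [Submodule.mem_span_pair]
      refine ⟨B (Pi.single i 1) v0 / a, B (pr (Pi.single i 1)) v1 / b, ?_⟩
      have h := hall i
      rw [hpr2d, neg_smul, ← sub_eq_add_neg, sub_eq_zero] at h
      rw [← h, hprd, neg_smul]
      abel
    have htop : (⊤ : Submodule F (Fin 3 → F)) ≤ Submodule.span F ({v0, v1} : Set (Fin 3 → F)) := fun x _ => by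
      rw [show x = x 0 • Pi.single 0 1 + x 1 • Pi.single 1 1 + x 2 • Pi.single 2 1 by funext i; fin_cases i <;> simp]
      exact add_mem (add_mem (Submodule.smul_mem _ _ (hspan 0)) (Submodule.smul_mem _ _ (hspan 1))) (Submodule.smul_mem _ _ (hspan 2))
    have h1 := Submodule.finrank_mono htop
    rw [finrank_top, Module.finrank_fin_fun] at h1
    have h3 := finrank_span_le_card (R := F) ({v0, v1} : Set (Fin 3 → F))
    have h4 : ({v0, v1} : Set (Fin 3 → F)).toFinset.card ≤ 2 := by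
      simp only [Set.toFinset_insert, Set.toFinset_singleton]
      exact Finset.card_le_two
    omega
  set c := B v2 v2 with hcdef
  have hc' : c ∈ F₀ := hB _ _ hv2R hv2R
  have h02 : B v0 v2 = 0 := by rw [hsymm _ _ hv2R hv0R]; exact hv20
  have h12 : B v1 v2 = 0 := by rw [hsymm _ _ hv2R hv1R]; exact hv21
  set t := a * b * c with htdef
  have ht : t ∈ F₀ := mul_mem (mul_mem ha hb) hc'
  have ht0 : t ≠ 0 := mul_ne_zero (mul_ne_zero hv0 hv1) hv2
  obtain ⟨x, y, hx, hy, hxy⟩ := C.binary hp (hfix a ha) (hfix b hb) (hfix t ht) hv0 hv1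
  replace hx := hmem x hx
  replace hy := hmem y hy
  set u := x • v0 + y • v1 with hu
  set u' := (-(y * b)) • v0 + (x * a) • v1 with hu'
  have habt : a * b * t ∈ F₀ := mul_mem (mul_mem ha hb) ht
  obtain ⟨x', y', hx', hy', hxy'⟩ := C.binary hp (hfix _ habt) (hfix c hc') (hfix t ht)
    (mul_ne_zero (mul_ne_zero hv0 hv1) ht0) hv2
  replace hx' := hmem x' hx'
  replace hy' := hmem y' hy'
  have hk1 : -(y * b) ∈ F₀ := neg_mem (mul_mem hy hb)
  have hk2 : x * a ∈ F₀ := mul_mem hx ha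
  set w := x' • u' + y' • v2 with hw
  set w' := t⁻¹ • ((-(y' * c)) • u' + (x' * (a * b * t)) • v2) with hw'
  have hk3 : -(y' * c) ∈ F₀ := neg_mem (mul_mem hy' hc')
  have hk4 : x' * (a * b * t) ∈ F₀ := mul_mem hx' habt
  have hti : t⁻¹ ∈ F₀ := inv_mem ht
  have hu'R : R u' := hRadd _ _ (hRsm _ _ hk1 hv0R) (hRsm _ _ hk2 hv1R)
  have huR : R u := hRadd _ _ (hRsm _ _ hx hv0R) (hRsm _ _ hy hv1R)
  have hwR : R w := hRadd _ _ (hRsm _ _ hx' hu'R) (hRsm _ _ hy' hv2R)
  have hw'R : R w' := hRsm _ _ hti (hRadd _ _ (hRsm _ _ hk3 hu'R) (hRsm _ _ hk4 hv2R))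
  let T : Fin 3 → (Fin 3 → F) := ![u, w, w']
  have hT : ∀ i j, B (T i) (T j) = if i = j then t else 0 := by
    intro i j
    fin_cases i <;> fin_cases j <;>
      simp only [T, Fin.zero_eta, Fin.mk_one, Fin.reduceFinMk, Matrix.cons_val_zero, Matrix.cons_val_one, Matrix.cons_val,
        hu, hu', hw, hw', haddl, haddr, hsml, hsmr _ hx, hsmr _ hy, hsmr _ hx', hsmr _ hy', hsmr _ hk1, hsmr _ hk2,
        hsmr _ hk3, hsmr _ hk4, hsmr _ hti, ← hadef, ← hbdef, ← hcdef, h01, h02, h12, hv10, hv20, hv21, Fin.reduceEq,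
        if_true, if_false, mul_zero, add_zero, zero_add]
    · linear_combination hxy
    · ring
    · ring
    · ring
    · linear_combination hxy' + (x' ^ 2 * a * b) * hxy
    · field_simp
      linear_combination (-(x' * y' * c * a * b)) * hxy
    · ring
    · field_simp
      linear_combination (-(x' * y' * c * a * b)) * hxy
    · field_simp
      linear_combination (a * b * c * t) * hxy' + (a * b * c * c * y' * y') * hxy - (t ^ 2) * htdef
  obtain ⟨r, hr⟩ := exists_norm hF t (hfix t ht)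
  have hr0 : r ≠ 0 := fun h => by rw [h, zero_mul] at hr; exact ht0 hr.symm
  let f : Fin 3 → (Fin 3 → F) := fun j => r⁻¹ • ((P : Matrix (Fin 3) (Fin 3) F) *ᵥ T j)
  have hf : ∀ i j, Cfsg.hermForm 3 F p (f i) (f j) = if i = j then 1 else 0 := fun i j => by
    simp only [f, hh_smul_left hF, hh_smul_right hF]
    rw [show Cfsg.hermForm 3 F p _ _ = B (T i) (T j) from rfl, hT, inv_pow]
    split_ifs
    · rw [← hr]; field_simp
    · ring
  obtain ⟨U, hU, hUf⟩ := UnitaryEigenFrame.exists_mem_of_frame hF hf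
  let T0 : Matrix (Fin 3) (Fin 3) F₀ := Matrix.of fun i j => ⟨T j i, by
    fin_cases j
    · exact huR i
    · exact hwR i
    · exact hw'R i⟩
  let TM : Matrix (Fin 3) (Fin 3) F := T0.map F₀.subtype
  have hUP : (U : Matrix (Fin 3) (Fin 3) F) = r⁻¹ • ((P : Matrix (Fin 3) (Fin 3) F) * TM) := by
    ext i j
    rw [hUf]
    rfl
  have hTdet : T0.det ≠ 0 := fun h0 => by
    have h1 : TM.det = 0 := by
      show (T0.map F₀.subtype).det = 0
      rw [show T0.map F₀.subtype = F₀.subtype.mapMatrix T0 from rfl, ← RingHom.map_det, h0, map_zero]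
    have h := Matrix.GeneralLinearGroup.det_ne_zero U
    rw [hUP, Matrix.det_smul, Matrix.det_mul, h1, mul_zero, mul_zero] at h
    exact h rfl
  let T' : GL (Fin 3) F₀ := Matrix.GeneralLinearGroup.mkOfDetNeZero T0 hTdet
  refine ⟨U, hU, fun g hg hgU => ?_⟩
  rw [SubfieldScaled.mem_subfieldSubgroup_iff, sup_comm, Subgroup.mem_sup_of_normal_left] at hg
  obtain ⟨s, hs', k, ⟨K, rfl⟩, hsk⟩ := hg
  obtain ⟨l₀, hl₀⟩ := (mem_scalars_iff s).mp hs'
  let A₀ : GL (Fin 3) F₀ := T'⁻¹ * K * T'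
  let A : Matrix (Fin 3) (Fin 3) F := (A₀ : Matrix (Fin 3) (Fin 3) F₀).map F₀.subtype
  have hM : ((U⁻¹ * g * U : GL (Fin 3) F) : Matrix (Fin 3) (Fin 3) F) = (l₀ : F) • A := by
    have e : (g : Matrix (Fin 3) (Fin 3) F) * (U : Matrix (Fin 3) (Fin 3) F) =
        (U : Matrix (Fin 3) (Fin 3) F) * ((l₀ : F) • A) := by
      have h1 : TM * A = (K : Matrix (Fin 3) (Fin 3) F₀).map F₀.subtype * TM := by
        show T0.map F₀.subtype * _ = _
        rw [← Matrix.map_mul, ← Matrix.map_mul]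
        congr 1
        show (T' : Matrix (Fin 3) (Fin 3) F₀) * ((T'⁻¹ * K * T' : GL (Fin 3) F₀) : Matrix (Fin 3) (Fin 3) F₀) = _
        rw [← Units.val_mul, ← mul_assoc, mul_inv_cancel_left, Units.val_mul]
        rfl
      have h2 : (g : Matrix (Fin 3) (Fin 3) F) * (P : Matrix (Fin 3) (Fin 3) F) =
          (P : Matrix (Fin 3) (Fin 3) F) * ((l₀ : F) • (K : Matrix (Fin 3) (Fin 3) F₀).map F₀.subtype) := by
        rw [show g = P * (P⁻¹ * g * P) * P⁻¹ by group, ← hsk]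
        simp only [Units.val_mul, mul_assoc, Units.inv_mul, mul_one, hl₀, Matrix.smul_mul, one_mul]
        rfl
      rw [hUP, Matrix.mul_smul, Matrix.smul_mul, Matrix.mul_smul, ← mul_assoc, h2, Matrix.mul_smul, Matrix.smul_mul,
        mul_assoc, mul_assoc, ← h1, smul_comm]
    rw [Units.val_mul, Units.val_mul, mul_assoc, e, ← mul_assoc, Units.inv_mul, one_mul]
  have hAfix : ∀ i j, A i j ^ p = A i j := fun i j => hfix _ (SetLike.coe_mem _)
  have hgr : ((l₀ : F) * (l₀ : F) ^ p) • (Aᵀ * A) = 1 := by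
    ext i j
    have h := mem_GU_iff.1 ((Cfsg.GU 3 F p).mul_mem ((Cfsg.GU 3 F p).mul_mem ((Cfsg.GU 3 F p).inv_mem hU) hgU) hU)
      (Pi.single i 1) (Pi.single j 1)
    rw [hM] at h
    have hone : Cfsg.hermForm 3 F p (Pi.single i (1 : F)) (Pi.single j 1) = if i = j then 1 else 0 := by
      simp only [Cfsg.hermForm, Fin.sum_univ_three]
      fin_cases i <;> fin_cases j <;> simp [C.pp.ne_zero]
    rw [hone] at h
    rw [Matrix.smul_apply, Matrix.one_apply, ← h]
    simp only [Cfsg.hermForm, Matrix.mulVec_single, MulOpposite.op_one, one_smul, Matrix.col_apply, Matrix.smul_apply,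
      smul_eq_mul, mul_pow, hAfix, Matrix.mul_apply, Matrix.transpose_apply, Finset.mul_sum]
    refine Finset.sum_congr rfl fun k _ => ?_
    ring
  set μ := (l₀ : F) * (l₀ : F) ^ p with hμ
  have hμ0 : μ ≠ 0 := mul_ne_zero l₀.ne_zero (pow_ne_zero _ l₀.ne_zero)
  have hμq : μ ^ p = μ := norm_fixed hF _
  have hd : μ ^ 3 * A.det ^ 2 = 1 := by
    have h := congrArg Matrix.det hgr
    rw [Matrix.det_smul, Fintype.card_fin, Matrix.det_mul, Matrix.det_transpose, Matrix.det_one] at h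
    linear_combination h
  have hdf : A.det ^ p = A.det := hfix _ (by
    show ((A₀ : Matrix (Fin 3) (Fin 3) F₀).map F₀.subtype).det ∈ F₀
    rw [show ((A₀ : Matrix (Fin 3) (Fin 3) F₀).map F₀.subtype) = F₀.subtype.mapMatrix (A₀ : Matrix (Fin 3) (Fin 3) F₀) from rfl,
      ← RingHom.map_det]
    exact SetLike.coe_mem _)
  have hd0 : A.det ≠ 0 := fun h => by rw [h] at hd; simp at hd
  refine ⟨(l₀ : F) / (μ ^ 2 * A.det), (μ ^ 2 * A.det) • A, div_ne_zero l₀.ne_zero (mul_ne_zero (pow_ne_zero _ hμ0) hd0),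
    fun i j => ?_, ?_, ?_⟩
  · rw [Matrix.smul_apply, smul_eq_mul, mul_pow, mul_pow, ← pow_mul, mul_comm 2 p, pow_mul, hμq, hdf, hAfix]
  · rw [Matrix.transpose_smul, Matrix.smul_mul, Matrix.mul_smul, smul_smul, ← hgr]
    congr 1
    linear_combination μ * hd
  · rw [hM, smul_smul, div_mul_cancel₀ _ (mul_ne_zero (pow_ne_zero _ hμ0) hd0)]

theorem orth_codes {A : Matrix (Fin 3) (Fin 3) F} (hA : ∀ i j, A i j ^ p = A i j) (horth : Aᵀ * A = 1) :
    ∃ u v w : V3, u ∈ unitVecs p ∧ v ∈ unitVecs p ∧ w ∈ unitVecs p ∧ dotC p u v = 0 ∧ dotC p u w = 0 ∧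
      dotC p v w = 0 ∧ u.1 < p ∧ u.2.1 < p ∧ u.2.2 < p ∧ C.ev (colsC u v w) = A := by
  choose c hc hcv _hcn using fun i j => C.fixed_code (hA i j)
  let col : Fin 3 → V3 := fun j => (c 0 j, c 1 j, c 2 j)
  have hp := C.pp.pos
  have hdot : ∀ i j, C.phi (dotC p (col i) (col j)) = if i = j then 1 else 0 := fun i j => by
    rw [C.phi_dot, hcv, hcv, hcv, hcv, hcv, hcv, ← Matrix.one_apply, ← horth]
    simp [Matrix.mul_apply, Matrix.transpose_apply, Fin.sum_univ_three]
  have hone : ∀ i, dotC p (col i) (col i) = 1 := fun i =>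
    C.phi_inj (addC_lt hp _ _) (lt_of_lt_of_le C.pp.one_lt (Nat.le_mul_of_pos_right _ hp))
      (by rw [hdot, if_pos rfl, C.phi_one])
  have hzero : ∀ i j, i ≠ j → dotC p (col i) (col j) = 0 := fun i j h =>
    C.phi_inj (addC_lt hp _ _) (Nat.mul_pos hp hp) (by rw [hdot, if_neg h, C.phi_zero])
  have hmemU : ∀ i, col i ∈ unitVecs p := fun i => by
    rw [unitVecs, List.mem_filter, beq_iff_eq]
    refine ⟨List.mem_map.mpr ⟨c 0 i + p * (c 1 i + p * c 2 i), List.mem_range.mpr ?_, ?_⟩, hone i⟩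
    · have e1 : c 1 i + p * c 2 i + 1 ≤ p * p := by
        have := Nat.mul_le_mul_left p (show c 2 i + 1 ≤ p from hc 2 i)
        rw [mul_add, mul_one] at this
        have := hc 1 i
        omega
      have e2 := Nat.mul_le_mul_left p e1
      rw [mul_add, mul_one, ← mul_assoc] at e2
      have := hc 0 i
      omega
    · show (_, _, _) = (_, _, _)
      rw [Nat.add_mul_mod_self_left, Nat.mod_eq_of_lt (hc 0 i), Nat.add_mul_div_left _ _ hp,
        Nat.div_eq_of_lt (hc 0 i), zero_add, Nat.add_mul_mod_self_left, Nat.mod_eq_of_lt (hc 1 i),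
        Nat.add_mul_div_left _ _ hp, Nat.div_eq_of_lt (hc 1 i), zero_add]
  refine ⟨col 0, col 1, col 2, hmemU 0, hmemU 1, hmemU 2, hzero _ _ (by decide), hzero _ _ (by decide),
    hzero _ _ (by decide), hc 0 0, hc 1 0, hc 2 0, ?_⟩
  ext i j
  fin_cases i <;> fin_cases j <;> simp [Coord.ev, Coord.phiV, colsC, col, hcv]

end Coord

/-- The orthogonal subgroup is not maximal over twenty-five elements. -/
theorem orth_five (hF : Fintype.card F = 5 ^ 2) {H : Subgroup (GL (Fin 3) F)}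
    (hH : IsMaximalIn (Cfsg.GU 3 F 5 ⊓ specialLinear (Fin 3) F) H) {F₀ : Subfield F}
    (hc : Fintype.card F = Nat.card F₀ ^ 2) {P : GL (Fin 3) F}
    (hs : IsFormRationalStructure (Cfsg.hermForm 3 F 5) F₀ 1 P) (hle : H ≤ subfieldSubgroup F₀ P) : False := by
  classical
  obtain ⟨C⟩ := exists_coord hF (Or.inr rfl)
  obtain ⟨U, hU, hU'⟩ := C.exists_orth_frame (Or.inr rfl) hc hs
  obtain ⟨k1, k2, k3, k4, k5, k6, k7, g0, g0', hrat⟩ := orth5_facts
  refine C.not_maximal hH hU (T := inv5) (reps := orth5Reps) (G := orth5G) (S := orth5S) (v0 := orth5V)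
    ?_ k1 k2 k3 ?_ k4 k5 k6 k7
  · intro h hh v hv
    obtain ⟨l, A, hl, hA, hAo, hM⟩ := hU' h (hle hh) (hH.1.le hh).1
    obtain ⟨a, b, c, ha, hb, hc', hab, hac, hbc, -, -, -, he⟩ := C.orth_codes hA hAo
    have h1 := List.all_eq_true.mp orth5_table a ha
    have h2 := List.all_eq_true.mp h1 b hb
    simp only [hab, beq_self_eq_true, Bool.not_true, Bool.false_or] at h2
    have h3 := List.all_eq_true.mp h2 c hc'
    simp only [hac, hbc, beq_self_eq_true, Bool.and_self, Bool.not_true, Bool.false_or] at h3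
    rw [hM, ← he]
    exact C.chk_sound h3 hl hv
  · intro h hh e
    obtain ⟨l, A, hl, hA, hAo, hM⟩ := hU' h (hle hh) (hH.1.le hh).1
    obtain ⟨a, b, c, -, -, -, -, -, -, ha1, ha2, -, he⟩ := C.orth_codes hA hAo
    rw [hM, ← he] at e
    have e0 : l * C.phi a.1 = C.phi orth5G.1.1 := congrFun (congrFun e 0) 0
    have e1 : l * C.phi a.2.1 = C.phi orth5G.2.1.1 := congrFun (congrFun e 1) 0
    have hz := hrat a.1 ha1 a.2.1 ha2 (C.phi_inj (mulC_lt C.pp.pos _ _) (mulC_lt C.pp.pos _ _)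
      (by rw [C.phi_mul, C.phi_mul, ← e0, ← e1]; ring))
    rw [hz, C.phi_zero, mul_zero] at e0
    exact C.phi_ne g0 g0' e0.symm

/-- The orthogonal subgroup over nine elements is monomial. -/
theorem orth_three (hF : Fintype.card F = 3 ^ 2) {F₀ : Subfield F} (hc : Fintype.card F = Nat.card F₀ ^ 2)
    {P : GL (Fin 3) F} (hs : IsFormRationalStructure (Cfsg.hermForm 3 F 3) F₀ 1 P) :
    ∃ D : Fin 3 → Submodule F (Fin 3 → F), IsNondegenerateMDecomposition (Cfsg.hermForm 3 F 3) 1 D ∧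
      subfieldSubgroup F₀ P ⊓ Cfsg.GU 3 F 3 ≤ decompositionStabilizer D := by
  classical
  obtain ⟨C⟩ := exists_coord hF (Or.inl rfl)
  obtain ⟨U, hU, hU'⟩ := C.exists_orth_frame (Or.inl rfl) hc hs
  let u : Fin 3 → (Fin 3 → F) := fun j => (U : Matrix (Fin 3) (Fin 3) F) *ᵥ Pi.single j 1
  have hu : ∀ i j, Cfsg.hermForm 3 F 3 (u i) (u j) = if i = j then 1 else 0 := fun i j => by
    rw [mem_GU_iff.1 hU]
    simp only [Cfsg.hermForm, Fin.sum_univ_three]
    fin_cases i <;> fin_cases j <;> simp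
  have hD := line_decomp hF (n := 3) (by norm_num) hu
  refine ⟨_, hD, fun g hg => mem_decomp_of_forall hD.decomp fun j => ?_⟩
  obtain ⟨l, A, hl, hA, hAo, hM⟩ := hU' g hg.1 hg.2
  obtain ⟨a, b, c, ha, hb, hc', -, -, -, -, -, -, he⟩ := C.orth_codes hA hAo
  have hw : ∀ v ∈ unitVecs 3, ∃ (k : Fin 3) (x : F), C.phiV v = x • Pi.single k 1 := by
    intro v hv
    have h := List.all_eq_true.mp orth3_table v hv
    simp only [Bool.or_eq_true, Bool.and_eq_true, beq_iff_eq] at h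
    rcases h with (⟨h1, h2⟩ | ⟨h1, h2⟩) | ⟨h1, h2⟩
    · exact ⟨0, C.phi v.1, by funext i; fin_cases i <;> simp [Coord.phiV, h1, h2, C.phi_zero]⟩
    · exact ⟨1, C.phi v.2.1, by funext i; fin_cases i <;> simp [Coord.phiV, h1, h2, C.phi_zero]⟩
    · exact ⟨2, C.phi v.2.2, by funext i; fin_cases i <;> simp [Coord.phiV, h1, h2, C.phi_zero]⟩
  have hcolA : ∃ (k : Fin 3) (x : F), A *ᵥ Pi.single j 1 = x • Pi.single k 1 := by
    rw [← he, C.ev_cols]
    fin_cases j
    · obtain ⟨k, x, hx⟩ := hw a ha; exact ⟨k, x, by simpa using hx⟩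
    · obtain ⟨k, x, hx⟩ := hw b hb; exact ⟨k, x, by simpa using hx⟩
    · obtain ⟨k, x, hx⟩ := hw c hc'; exact ⟨k, x, by simpa using hx⟩
  obtain ⟨k, x, hx⟩ := hcolA
  refine ⟨k, fun y hy => ?_⟩
  obtain ⟨d, rfl⟩ := Submodule.mem_span_singleton.mp hy
  refine Submodule.mem_span_singleton.mpr ⟨d * (l * x), ?_⟩
  have e : (g : Matrix (Fin 3) (Fin 3) F) *ᵥ u j = (l * x) • u k := by
    show _ *ᵥ ((U : Matrix (Fin 3) (Fin 3) F) *ᵥ _) = _
    rw [show g = U * (U⁻¹ * g * U) * U⁻¹ by group, Units.val_mul, Units.val_mul, ← Matrix.mulVec_mulVec,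
      Matrix.mulVec_mulVec _ ((U⁻¹ : GL (Fin 3) F) : Matrix (Fin 3) (Fin 3) F), Units.inv_mul, Matrix.one_mulVec,
      ← Matrix.mulVec_mulVec, hM, Matrix.smul_mulVec, hx, smul_smul, Matrix.mulVec_smul]
  rw [Matrix.mulVec_smul, e, smul_smul]

end Cfsg.Agent.GeomClasses.MaxList.U3
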