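import Cfsg.Agent.GeomClasses.MaxList.U3.Data
import Cfsg.Agent.GeomClasses.MaxList.UExcl

/-! # Normalisers of degree three fields over nine and twenty-five elements are not maximal -/

set_option autoImplicit false
set_option maxRecDepth 10000

namespace Cfsg.Agent.GeomClasses.MaxList.U3

open Matrix Cfsg.Geo Cfsg.Agent.GeomClasses.Unitary
open scoped Pointwise

/-- Powers of a matrix of codes. -/
def powM (p : ℕ) (X : M3) : ℕ → M3
  | 0 => oneC
  | k + 1 => mmC p X (powM p X k)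

/-- Representatives of the projective points. -/
def projVecs (p : ℕ) : List V3 :=
  ((List.range (p * p * (p * p))).map fun c => (1, c % (p * p), c / (p * p))) ++
    ((List.range (p * p)).map fun c => (0, 1, c)) ++ [(0, 0, 1)]

/-- The candidate for an element carrying `X` to its `k`th power. -/
def candC (p : ℕ) (X Binv : M3) (v : V3) (k : ℕ) : M3 :=
  mmC p (colsC v (mvC p (powM p X k) v) (mvC p (powM p X k) (mvC p (powM p X k) v))) Binv

/-- All codes are reduced. -/
def small (p : ℕ) (A : M3) : Bool :=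
  [A.1.1, A.1.2.1, A.1.2.2, A.2.1.1, A.2.1.2.1, A.2.1.2.2, A.2.2.1, A.2.2.2.1, A.2.2.2.2].all fun x => decide (x < p * p)

/-- Scalar Gram matrix. -/
def scalarGram (p : ℕ) (A : M3) : Bool :=
  let G := gramC p A
  (G.1.1 != 0) && (G == smC p G.1.1 oneC)

/-- Can the matrix be scaled into the special unitary group? -/
def inSU (p : ℕ) (A : M3) : Bool :=
  scalarGram p A && (List.range (p * p)).any fun l =>
    mulC p (mulC p l (mulC p l l)) (detC p A) == 1 && mulC p (mulC p l (cjC p l)) (gramC p A).1.1 == 1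

/-- Inverse of the basis for the prime three. -/
def singer3B : M3 := ((1, 2, 8), (0, 5, 3), (0, 7, 8))
/-- Inverse of the basis for the prime five. -/
def singer5B : M3 := ((1, 0, 11), (0, 11, 18), (0, 20, 4))

/-- The checks on a candidate configuration. -/
def singerFacts (p T : ℕ) (reps : List ℕ) (G S X Binv : M3) (V : ℕ) : Bool :=
  chk p T (maskOf reps) reps G && gramC p G == oneC && detC p G == 1 && gramC p S == oneC && detC p S == 1 &&
    reps.contains V && reps.all (fun c => indepC p (mvC p S (decV p V)) (decV p c)) &&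
    gramC p X == oneC && powM p X 7 == oneC && (X != oneC && small p X) &&
    mmC p (colsC (1, 0, 0) (mvC p X (1, 0, 0)) (mvC p X (mvC p X (1, 0, 0)))) Binv == oneC &&
    (List.range 7).all (fun k => mmC p G X != mmC p (powM p X k) G) &&
    (List.range 7).all fun k => (projVecs p).all fun v =>
      !(inSU p (candC p X Binv v k)) || chk p T (maskOf reps) reps (candC p X Binv v k)

theorem singer3_check : singerFacts 3 inv3 singer3Reps singer3G singer3S singer3X singer3B singer3V = true := by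
  decide +kernel

theorem singer5_check : singerFacts 5 inv5 singer5Reps singer5G singer5S singer5X singer5B singer5V = true := by
  decide +kernel

theorem small_mm {p : ℕ} (hp : 0 < p) (A B : M3) : small p (mmC p A B) = true := by
  simp [small, mmC, dotC, addC_lt hp]

variable {F : Type*} [Field F] [Fintype F] {q : ℕ}

namespace Coord

theorem ev_inj (C : Coord q F) {A B : M3} (hA : small q A = true) (hB : small q B = true) (h : C.ev A = C.ev B) :
    A = B := by
  simp only [small, List.all_cons, List.all_nil, Bool.and_eq_true, decide_eq_true_eq, Bool.and_true] at hA hB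
  obtain ⟨a1, a2, a3, a4, a5, a6, a7, a8, a9⟩ := hA
  obtain ⟨b1, b2, b3, b4, b5, b6, b7, b8, b9⟩ := hB
  have e := fun i j => congrFun (congrFun h i) j
  exact Prod.ext (Prod.ext (C.phi_inj a1 b1 (e 0 0)) (Prod.ext (C.phi_inj a2 b2 (e 0 1)) (C.phi_inj a3 b3 (e 0 2))))
    (Prod.ext (Prod.ext (C.phi_inj a4 b4 (e 1 0)) (Prod.ext (C.phi_inj a5 b5 (e 1 1)) (C.phi_inj a6 b6 (e 1 2))))
      (Prod.ext (C.phi_inj a7 b7 (e 2 0)) (Prod.ext (C.phi_inj a8 b8 (e 2 1)) (C.phi_inj a9 b9 (e 2 2)))))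

end Coord

theorem herm_ext (hF : Fintype.card F = q ^ 2) {n : ℕ} {A B : Matrix (Fin n) (Fin n) F}
    (h : ∀ u v, Cfsg.hermForm n F q u (A *ᵥ v) = Cfsg.hermForm n F q u (B *ᵥ v)) : A = B := by
  refine Forms.matrix_ext_mulVec fun v => ?_
  rw [← sub_eq_zero]
  refine nonDeg_top hF _ trivial fun u _ => ?_
  rw [hh_sub_left hF, sub_eq_zero, ← hh_conj hF u, ← hh_conj hF u, h]

/-- An element of order seven in a field closed under adjoints. -/
theorem exists_seven_field (hF : Fintype.card F = q ^ 2) (hq : q = 3 ∨ q = 5)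
    {K : Subalgebra F (Matrix (Fin 3) (Fin 3) F)} (hK : IsFieldSubalgebra 3 K)
    (hadj : IsAdjointClosedFor (Cfsg.hermForm 3 F q) K) :
    ∃ u : GL (Fin 3) F, u ∈ Cfsg.GU 3 F q ∧ u ^ 7 = 1 ∧ u ≠ 1 ∧
      ∀ h ∈ subalgebraNormalizer K, ∃ k, h * u * h⁻¹ = u ^ k := by
  classical
  haveI : Nontrivial K := Module.nontrivial_of_finrank_pos (R := F) (by
    show 0 < Module.finrank F K
    rw [hK.finrank_eq]; omega)
  have hfield : IsField K :=
    { exists_pair_ne := exists_pair_ne _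
      mul_comm := fun x y => Subtype.ext (hK.comm x x.2 y y.2)
      mul_inv_cancel := fun {x} hx => by
        obtain ⟨y, hy, hxy⟩ := hK.inv x x.2 (fun h => hx (Subtype.ext h))
        exact ⟨⟨y, hy⟩, Subtype.ext hxy⟩ }
  letI : Field K := hfield.toField
  letI : Fintype K := Fintype.ofFinite _
  have hcard : Fintype.card K = q ^ 6 := by
    rw [← Nat.card_eq_fintype_card, Module.natCard_eq_pow_finrank (K := F), Nat.card_eq_fintype_card, hF,
      show Module.finrank F K = 3 from hK.finrank_eq, ← pow_mul]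
  choose τ₀ hτm hτ using fun k : K => hadj k k.2
  let τ : K → K := fun k => ⟨τ₀ k, hτm k⟩
  have huniq : ∀ (k : K) (m : K), (∀ u v, Cfsg.hermForm 3 F q ((k : Matrix (Fin 3) (Fin 3) F) *ᵥ u) v =
      Cfsg.hermForm 3 F q u ((m : Matrix (Fin 3) (Fin 3) F) *ᵥ v)) → τ k = m := fun k m h =>
    Subtype.ext (herm_ext hF fun u v => by rw [← hτ, h])
  have hinv : ∀ k, τ (τ k) = k := fun k => huniq _ _ fun u v => by
    show Cfsg.hermForm 3 F q (τ₀ k *ᵥ u) v = _
    rw [← hh_conj hF, ← hτ, hh_conj hF]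
  let τh : K ≃+* K :=
    { toFun := τ
      invFun := τ
      left_inv := hinv
      right_inv := hinv
      map_mul' := fun a b => huniq _ _ fun u v => by
        show Cfsg.hermForm 3 F q ((a * b : K).val *ᵥ u) v = Cfsg.hermForm 3 F q u ((τ a * τ b : K).val *ᵥ v)
        rw [show τ a * τ b = τ b * τ a from hfield.mul_comm _ _]
        show Cfsg.hermForm 3 F q ((a.val * b.val) *ᵥ u) v = Cfsg.hermForm 3 F q u ((τ₀ b * τ₀ a) *ᵥ v)
        rw [← Matrix.mulVec_mulVec, hτ, hτ, Matrix.mulVec_mulVec]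
      map_add' := fun a b => huniq _ _ fun u v => by
        show Cfsg.hermForm 3 F q ((a.val + b.val) *ᵥ u) v = Cfsg.hermForm 3 F q u ((τ₀ a + τ₀ b) *ᵥ v)
        rw [Matrix.add_mulVec, Matrix.add_mulVec, hh_add_left hF, hh_add_right hF, hτ, hτ] }
  have hne : τh ≠ RingEquiv.refl K := fun h => by
    obtain ⟨a, ha⟩ := exists_not_fixed hF
    have e : τ₀ (algebraMap F K a) = (algebraMap F K a : Matrix (Fin 3) (Fin 3) F) :=
      congrArg (fun k : K => (k : Matrix (Fin 3) (Fin 3) F)) (congrArg (fun σ : K ≃+* K => σ (algebraMap F K a)) h)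
    have hval : ((algebraMap F K a : K) : Matrix (Fin 3) (Fin 3) F) = a • 1 := by
      rw [Subalgebra.coe_algebraMap, Algebra.algebraMap_eq_smul_one]
    obtain ⟨w, -, hw⟩ := exists_unit hF (nonDeg_top (n := 3) hF) (fun h0 => by
      have := congrArg (fun W : Submodule F (Fin 3 → F) => Module.finrank F W) h0
      simp at this)
    have h1 := hτ (algebraMap F K a) w w
    rw [e, hval, Matrix.smul_mulVec, Matrix.one_mulVec, hh_smul_left hF, hh_smul_right hF, hw, mul_one, mul_one] at h1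
    exact ha h1.symm
  haveI : Fact (Nat.Prime 7) := ⟨by norm_num⟩
  obtain ⟨u, hu⟩ := exists_prime_orderOf_dvd_card' (G := Kˣ) 7 (by
    rw [Nat.card_eq_fintype_card, Fintype.card_units, hcard]
    rcases hq with rfl | rfl <;> norm_num)
  have hu7 : (u : K) ^ 7 = 1 := by
    rw [← Units.val_pow_eq_pow_val, ← hu, pow_orderOf_eq_one, Units.val_one]
  have hu1 : (u : K) ≠ 1 := fun h => by
    rw [show u = 1 from Units.ext h, orderOf_one] at hu
    exact absurd hu (by norm_num)
  have hprim : IsPrimitiveRoot (u : K) 7 :=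
    IsPrimitiveRoot.coe_units_iff.mpr (hu ▸ IsPrimitiveRoot.orderOf u)
  obtain ⟨j, hj, hjτ⟩ := hprim.eq_pow_of_pow_eq_one (ξ := τh (u : K)) (by rw [← map_pow, hu7, map_one])
  have hj2 : (u : K) ^ (j * j) = u := by
    have := hinv (u : K)
    rw [show τ (u : K) = τh (u : K) from rfl, ← hjτ, show τ ((u : K) ^ j) = τh ((u : K) ^ j) from rfl, map_pow, ← hjτ,
      ← pow_mul] at this
    exact this
  have hjcase : j = 1 ∨ j = 6 := by
    have h1 : (u : K) ^ (j * j % 7) = (u : K) ^ 1 := by rw [← pow_eq_pow_mod _ hu7, hj2, pow_one]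
    have h2 := hprim.pow_inj (Nat.mod_lt _ (by norm_num)) (by norm_num) h1
    interval_cases j <;> omega
  have hτu : τ (u : K) = (u : K) ^ 6 := by
    rcases hjcase with rfl | rfl
    swap
    · exact hjτ.symm
    exfalso
    rw [pow_one] at hjτ
    letI : Fintype (AschRel.fixedBy τh) := Fintype.ofFinite _
    have hQ := AschRel.card_fixedBy_sq hne hinv
    rw [hcard, show q ^ 6 = (q ^ 3) ^ 2 by ring] at hQ
    have hQ' : q ^ 3 = Nat.card (AschRel.fixedBy τh) := Nat.pow_left_injective two_ne_zero hQ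
    let u' : AschRel.fixedBy τh := ⟨(u : K), hjτ.symm⟩
    have h := FiniteField.pow_card u'
    rw [← Nat.card_eq_fintype_card, ← hQ'] at h
    have h' : (u : K) ^ (q ^ 3) = u := congrArg Subtype.val h
    rw [pow_eq_pow_mod _ hu7] at h'
    have h'' := hprim.pow_inj (Nat.mod_lt _ (by norm_num)) (by norm_num) (h'.trans (pow_one _).symm)
    rcases hq with rfl | rfl <;> norm_num at h''
  let g : GL (Fin 3) F := Units.map K.val.toRingHom.toMonoidHom u
  have hgv : (g : Matrix (Fin 3) (Fin 3) F) = ((u : K) : Matrix (Fin 3) (Fin 3) F) := rfl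
  refine ⟨g, mem_GU_iff.mpr fun a b => ?_, ?_, fun h => ?_, fun h hh => ?_⟩
  · rw [hgv, hτ, Matrix.mulVec_mulVec]
    have e : τ₀ (u : K) * ((u : K) : Matrix (Fin 3) (Fin 3) F) = 1 := by
      have : τ (u : K) * (u : K) = 1 := by rw [hτu, ← pow_succ, hu7]
      exact congrArg (fun k : K => (k : Matrix (Fin 3) (Fin 3) F)) this
    rw [e, Matrix.one_mulVec]
  · rw [← map_pow, show u ^ 7 = 1 from hu ▸ pow_orderOf_eq_one u, map_one]
  · exact hu1 (Subtype.ext (by rw [← hgv, h]; rfl))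
  · have hmem : ((h * g * h⁻¹ : GL (Fin 3) F) : Matrix (Fin 3) (Fin 3) F) ∈ K := by
      rw [Units.val_mul, Units.val_mul, hgv]
      exact (hh _).mp (u : K).2
    have h7 : (⟨_, hmem⟩ : K) ^ 7 = 1 := Subtype.ext (by
      show ((h * g * h⁻¹ : GL (Fin 3) F) : Matrix (Fin 3) (Fin 3) F) ^ 7 = 1
      rw [← Units.val_pow_eq_pow_val, conj_pow, ← map_pow, show u ^ 7 = 1 from hu ▸ pow_orderOf_eq_one u, map_one,
        mul_one, mul_inv_cancel, Units.val_one])
    obtain ⟨k, -, hk⟩ := hprim.eq_pow_of_pow_eq_one h7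
    refine ⟨k, Units.ext ?_⟩
    rw [Units.val_pow_eq_pow_val, hgv]
    exact (congrArg (fun k : K => (k : Matrix (Fin 3) (Fin 3) F)) hk).symm

/-- Normalisers of degree three fields are not maximal. -/
theorem singer_core (hF : Fintype.card F = q ^ 2) (hq : q = 3 ∨ q = 5) {T : ℕ} {reps : List ℕ} {G S X Binv : M3}
    {V : ℕ} (hcheck : singerFacts q T reps G S X Binv V = true) {H : Subgroup (GL (Fin 3) F)}
    (hH : IsMaximalIn (Cfsg.GU 3 F q ⊓ specialLinear (Fin 3) F) H) {K : Subalgebra F (Matrix (Fin 3) (Fin 3) F)}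
    (hK : IsFieldSubalgebra 3 K) (hadj : IsAdjointClosedFor (Cfsg.hermForm 3 F q) K)
    (hle : H ≤ subalgebraNormalizer K) : False := by
  classical
  obtain ⟨C⟩ := exists_coord hF hq
  simp only [singerFacts, Bool.and_eq_true, beq_iff_eq, bne_iff_ne, List.contains_iff_mem] at hcheck
  obtain ⟨⟨⟨⟨⟨⟨⟨⟨⟨⟨⟨⟨k1, k2⟩, k3⟩, k4⟩, k5⟩, k6⟩, k7⟩, hXu⟩, hX7⟩, hX1, hXlt⟩, hB⟩, hGX⟩, htab⟩ := hcheck
  obtain ⟨u, huU, hu7, hu1, hun⟩ := exists_seven_field hF hq hK hadj
  have hevB := congrArg C.ev hB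
  rw [C.ev_mul, C.ev_one] at hevB
  have hpow : ∀ k, C.ev (powM q X k) = C.ev X ^ k := by
    intro k
    induction k with
    | zero => rw [powM, C.ev_one, pow_zero]
    | succ k ih => rw [powM, C.ev_mul, ih, pow_succ']
  have hX7' : C.ev X ^ 7 = 1 := by rw [← hpow, hX7, C.ev_one]
  let x : GL (Fin 3) F :=
    ⟨C.ev X, C.ev X ^ 6, by rw [← pow_succ', hX7'], by rw [← pow_succ, hX7']⟩
  have hxv : (x : Matrix (Fin 3) (Fin 3) F) = C.ev X := rfl
  have hx7 : x ^ 7 = 1 := Units.ext (by rw [Units.val_pow_eq_pow_val, Units.val_one]; exact hX7')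
  have hxU : x ∈ Cfsg.GU 3 F q := mem_GU_iff.mpr (C.herm_ev hXu)
  have hx1 : x ≠ 1 := fun h => by
    rcases hq with rfl | rfl
    all_goals
      have e : C.ev X = C.ev oneC := by rw [C.ev_one, ← hxv, h, Units.val_one]
      exact hX1 (C.ev_inj hXlt (by decide) e)
  haveI : Fact (Nat.Prime 7) := ⟨by norm_num⟩
  let G₀ := Cfsg.GU 3 F q
  have ho : ∀ y : GL (Fin 3) F, y ^ 7 = 1 → y ≠ 1 → orderOf y = 7 := fun y h h' => orderOf_eq_prime h h'
  let u₀ : G₀ := ⟨u, huU⟩
  let x₀ : G₀ := ⟨x, hxU⟩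
  have hu₀ : orderOf u₀ = 7 := by rw [← Subgroup.orderOf_coe]; exact ho u hu7 hu1
  have hx₀ : orderOf x₀ = 7 := by rw [← Subgroup.orderOf_coe]; exact ho x hx7 hx1
  have hfac : (Nat.card G₀).factorization 7 = 1 := by
    rw [Forms.card_GU hF]
    rcases hq with rfl | rfl <;> norm_num [Finset.prod_range_succ, Nat.even_iff]
    · rw [show (24192 : ℕ) = 7 * 3456 by norm_num, Nat.factorization_mul (by norm_num) (by norm_num)]
      simp [Nat.Prime.factorization_self (show Nat.Prime 7 by norm_num), Nat.factorization_eq_zero_of_not_dvd]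
    · rw [show (2268000 : ℕ) = 7 * 324000 by norm_num, Nat.factorization_mul (by norm_num) (by norm_num)]
      simp [Nat.Prime.factorization_self (show Nat.Prime 7 by norm_num), Nat.factorization_eq_zero_of_not_dvd]
  let Pu : Sylow 7 G₀ := Sylow.ofCard (Subgroup.zpowers u₀) (by rw [Nat.card_zpowers, hu₀, hfac, pow_one])
  let Px : Sylow 7 G₀ := Sylow.ofCard (Subgroup.zpowers x₀) (by rw [Nat.card_zpowers, hx₀, hfac, pow_one])
  obtain ⟨c, hc⟩ := MulAction.exists_smul_eq G₀ Px Pu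
  have hcu : u₀ ∈ MulAut.conj c • Subgroup.zpowers x₀ := by
    have e : ((c • Px : Sylow 7 G₀) : Subgroup G₀) = Subgroup.zpowers u₀ := by rw [hc]; rfl
    have e2 : ((c • Px : Sylow 7 G₀) : Subgroup G₀) = MulAut.conj c • Subgroup.zpowers x₀ := rfl
    rw [← e2, e]
    exact Subgroup.mem_zpowers _
  obtain ⟨_, ⟨m, rfl⟩, hm⟩ := hcu
  let U : GL (Fin 3) F := (c : GL (Fin 3) F)
  have hum : U * x ^ m * U⁻¹ = u := congrArg Subtype.val hm
  -- conjugates normalise the standard element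
  have hHn : ∀ h ∈ H, ∃ k, k < 7 ∧ (U⁻¹ * h * U) * x = x ^ k * (U⁻¹ * h * U) := by
    intro h hh
    set h' := U⁻¹ * h * U
    obtain ⟨k, hk⟩ := hun h (hle hh)
    have e1 : h' * x ^ m * h'⁻¹ = (x ^ m) ^ k := by
      have e2 : x ^ m = U⁻¹ * u * U := by rw [← hum]; group
      rw [e2, show U⁻¹ * u * U = U⁻¹ * u * (U⁻¹)⁻¹ by rw [inv_inv], conj_pow, inv_inv, ← hk]
      show U⁻¹ * h * U * (U⁻¹ * u * U) * (U⁻¹ * h * U)⁻¹ = _
      group
    have hm7 : ¬ (7 : ℤ) ∣ m := fun ⟨d, hd⟩ => hu1 (by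
      rw [← hum, hd, _root_.zpow_mul, show (7 : ℤ) = ((7 : ℕ) : ℤ) from rfl, _root_.zpow_natCast, hx7, _root_.one_zpow,
        mul_one, mul_inv_cancel])
    have hgen : x ∈ Subgroup.zpowers (x ^ m) := by
      have hox : orderOf x = 7 := ho x hx7 hx1
      have hsub : Subgroup.zpowers (x ^ m) ≤ Subgroup.zpowers x := Subgroup.zpowers_le.mpr (Subgroup.zpow_mem _ (Subgroup.mem_zpowers x) m)
      have hne : x ^ m ≠ 1 := fun h0 => hm7 (by
        have := orderOf_dvd_iff_zpow_eq_one.mpr h0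
        rwa [hox] at this)
      have hom : orderOf (x ^ m) = 7 := orderOf_eq_prime (by rw [← _root_.zpow_natCast, ← _root_.zpow_mul, mul_comm, _root_.zpow_mul, _root_.zpow_natCast, hx7, _root_.one_zpow]) hne
      rw [Subgroup.eq_of_le_of_card_ge hsub (by rw [Nat.card_zpowers, Nat.card_zpowers, hom, hox])]
      exact Subgroup.mem_zpowers x
    obtain ⟨d, hd⟩ := hgen
    have e3 : h' * x * h'⁻¹ ∈ Subgroup.zpowers x := by
      have e4 : h' * (x ^ m) ^ d * h'⁻¹ = (h' * x ^ m * h'⁻¹) ^ d := (conj_zpow).symm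
      have e5 : h' * x * h'⁻¹ = ((x ^ m) ^ k) ^ d := by rw [← e1, ← e4]; exact congrArg (fun z => h' * z * h'⁻¹) hd.symm
      rw [e5]
      exact Subgroup.zpow_mem _ (Subgroup.pow_mem _ (Subgroup.zpow_mem _ (Subgroup.mem_zpowers x) m) k) d
    rw [mem_zpowers_iff_mem_range_orderOf, ho x hx7 hx1, Finset.mem_image] at e3
    obtain ⟨i, hi, hi'⟩ := e3
    exact ⟨i, Finset.mem_range.mp hi, by rw [hi']; group⟩
  refine C.not_maximal hH c.2 (T := T) (reps := reps) (G := G) (S := S) (v0 := V) ?_ k1 k2 k3 ?_ k4 k5 k6 k7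
  · intro h hh v hv
    obtain ⟨k, hk7, hk⟩ := hHn h hh
    set M := ((U⁻¹ * h * U : GL (Fin 3) F) : Matrix (Fin 3) (Fin 3) F) with hM
    have hMU : ∀ a b, Cfsg.hermForm 3 F q (M *ᵥ a) (M *ᵥ b) = Cfsg.hermForm 3 F q a b :=
      mem_GU_iff.1 ((Cfsg.GU 3 F q).mul_mem ((Cfsg.GU 3 F q).mul_mem ((Cfsg.GU 3 F q).inv_mem c.2) (hH.1.le hh).1) c.2)
    have hcomm : M * C.ev X = C.ev (powM q X k) * M := by
      rw [hpow, ← hxv, hM, ← Units.val_mul, hk, Units.val_mul, Units.val_pow_eq_pow_val]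
    set e0 : Fin 3 → F := C.phiV (1, 0, 0)
    obtain ⟨a, r, hr, ha, hrv⟩ : ∃ (a : F) (r : V3), r ∈ projVecs q ∧ a ≠ 0 ∧ M *ᵥ e0 = a • C.phiV r := by
      have hne : M *ᵥ e0 ≠ 0 := fun h0 => by
        have h1 := hMU e0 e0
        rw [h0, hh_zero_left hF] at h1
        simp [e0, Coord.phiV, Cfsg.hermForm, Fin.sum_univ_three, C.phi_one, C.phi_zero, C.pp.ne_zero] at h1
      set w := M *ᵥ e0
      by_cases h0 : w 0 = 0
      · by_cases h1 : w 1 = 0
        · refine ⟨w 2, (0, 0, 1), by simp [projVecs], fun h2 => hne (funext fun i => by fin_cases i <;> assumption), ?_⟩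
          funext i; fin_cases i <;> simp [Coord.phiV, C.phi_zero, C.phi_one, h0, h1]
        · obtain ⟨d, hd, hdv⟩ := C.phi_surj (w 2 / w 1)
          refine ⟨w 1, (0, 1, d), by simp [projVecs, hd], h1, ?_⟩
          funext i; fin_cases i <;> simp [Coord.phiV, C.phi_zero, C.phi_one, h0, hdv, mul_div_cancel₀ _ h1]
      · obtain ⟨d, hd, hdv⟩ := C.phi_surj (w 1 / w 0)
        obtain ⟨d', hd', hdv'⟩ := C.phi_surj (w 2 / w 0)
        refine ⟨w 0, (1, d, d'), ?_, h0, ?_⟩
        · simp only [projVecs, List.mem_append, List.mem_map, List.mem_range]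
          refine Or.inl (Or.inl ⟨d + q * q * d', ?_, ?_⟩)
          · have e2 := Nat.mul_le_mul_left (q * q) (show d' + 1 ≤ q * q from hd')
            rw [mul_add, mul_one] at e2
            omega
          · rw [Nat.add_mul_mod_self_left, Nat.mod_eq_of_lt hd, Nat.add_mul_div_left _ _ (Nat.mul_pos C.pp.pos C.pp.pos),
              Nat.div_eq_of_lt hd, zero_add]
        · funext i; fin_cases i <;> simp [Coord.phiV, C.phi_one, hdv, hdv', mul_div_cancel₀ _ h0]
    have hMeq : M = a • C.ev (candC q X Binv r k) := by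
      have hcols : M * C.ev (colsC (1, 0, 0) (mvC q X (1, 0, 0)) (mvC q X (mvC q X (1, 0, 0)))) =
          a • C.ev (colsC r (mvC q (powM q X k) r) (mvC q (powM q X k) (mvC q (powM q X k) r))) := by
        refine Forms.matrix_ext_mulVec fun z => ?_
        rw [← Matrix.mulVec_mulVec, Matrix.smul_mulVec, C.ev_cols, C.ev_cols]
        simp only [Matrix.mulVec_add, Matrix.mulVec_smul, ← C.ev_mv, smul_add]
        have s1 : M *ᵥ (C.ev X *ᵥ e0) = a • (C.ev (powM q X k) *ᵥ C.phiV r) := by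
          rw [Matrix.mulVec_mulVec, hcomm, ← Matrix.mulVec_mulVec, hrv, Matrix.mulVec_smul]
        have s2 : M *ᵥ (C.ev X *ᵥ (C.ev X *ᵥ e0)) =
            a • (C.ev (powM q X k) *ᵥ (C.ev (powM q X k) *ᵥ C.phiV r)) := by
          rw [Matrix.mulVec_mulVec, hcomm, ← Matrix.mulVec_mulVec, s1, Matrix.mulVec_smul]
        rw [hrv, s1, s2, smul_comm a, smul_comm a, smul_comm a]
      calc M = M * (C.ev (colsC (1, 0, 0) (mvC q X (1, 0, 0)) (mvC q X (mvC q X (1, 0, 0)))) * C.ev Binv) := by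
            rw [hevB, mul_one]
        _ = _ := by rw [← mul_assoc, hcols, Matrix.smul_mul, candC, C.ev_mul]
    have hscal : scalarGram q (candC q X Binv r k) = true := by
      set A := candC q X Binv r k
      have hA : ∀ i j, C.phi (hC q (colC A i) (colC A j)) = if i = j then (a * a ^ q)⁻¹ else 0 := by
        intro i j
        have e : ∀ i, C.ev A *ᵥ Pi.single i 1 = C.phiV (colC A i) := fun i => by
          funext l
          fin_cases i <;> fin_cases l <;> simp [Coord.ev, Coord.phiV, colC]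
        have h1 := hMU (Pi.single i 1) (Pi.single j 1)
        rw [hMeq, Matrix.smul_mulVec, Matrix.smul_mulVec, e, e, hh_smul_left hF, hh_smul_right hF, C.herm_phiV] at h1
        have hone : Cfsg.hermForm 3 F q (Pi.single i (1 : F)) (Pi.single j 1) = if i = j then 1 else 0 := by
          simp only [Cfsg.hermForm, Fin.sum_univ_three]
          fin_cases i <;> fin_cases j <;> simp [C.pp.ne_zero]
        rw [hone, ← mul_assoc] at h1
        have haq : a * a ^ q ≠ 0 := mul_ne_zero ha (pow_ne_zero _ ha)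
        refine mul_left_cancel₀ haq ?_
        rw [h1]
        split_ifs
        · rw [mul_inv_cancel₀ haq]
        · rw [mul_zero]
      have hlt : ∀ u v, hC q u v < q * q := fun u v => addC_lt C.pp.pos _ _
      have hd : ∀ i, hC q (colC A i) (colC A i) = hC q (colC A 0) (colC A 0) := fun i =>
        C.phi_inj (hlt _ _) (hlt _ _) (by rw [hA, hA, if_pos rfl, if_pos rfl])
      have ho' : ∀ i j, i ≠ j → hC q (colC A i) (colC A j) = 0 := fun i j h =>
        C.phi_inj (hlt _ _) (Nat.mul_pos C.pp.pos C.pp.pos) (by rw [hA, if_neg h, C.phi_zero])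
      have h00 : hC q (colC A 0) (colC A 0) ≠ 0 := fun h => by
        have := hA 0 0
        rw [h, C.phi_zero, if_pos rfl] at this
        exact inv_ne_zero (mul_ne_zero ha (pow_ne_zero _ ha)) this.symm
      have hm1 : ∀ g, g < q * q → mulC q g 1 = g := fun g hg =>
        C.phi_inj (mulC_lt C.pp.pos _ _) hg (by rw [C.phi_mul, C.phi_one, mul_one])
      have hm0 : ∀ g, mulC q g 0 = 0 := fun g =>
        C.phi_inj (mulC_lt C.pp.pos _ _) (Nat.mul_pos C.pp.pos C.pp.pos) (by rw [C.phi_mul, C.phi_zero, mul_zero])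
      simp only [scalarGram, gramC, smC, smulC, oneC, Bool.and_eq_true, bne_iff_ne, beq_iff_eq, Prod.mk.injEq,
        hm1 _ (hlt _ _), hm0]
      refine ⟨h00, ?_⟩
      simp [ho' 0 1 (by decide), ho' 0 2 (by decide), ho' 1 0 (by decide), ho' 1 2 (by decide), ho' 2 0 (by decide),
        ho' 2 1 (by decide), hd 1, hd 2]
    have hsu : inSU q (candC q X Binv r k) = true := by
      obtain ⟨l, hl, hla⟩ := C.phi_surj a
      have hdM : M.det = 1 := by
        rw [hM, Units.val_mul, Units.val_mul, Matrix.det_units_conj', mem_specialLinear_iff.mp (hH.1.le hh).2]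
      have h1 : (1 : ℕ) < q * q := lt_of_lt_of_le C.pp.one_lt (Nat.le_mul_of_pos_right _ C.pp.pos)
      simp only [inSU, hscal, Bool.true_and, List.any_eq_true, List.mem_range, Bool.and_eq_true, beq_iff_eq]
      refine ⟨l, hl, C.phi_inj (mulC_lt C.pp.pos _ _) h1 ?_, C.phi_inj (mulC_lt C.pp.pos _ _) h1 ?_⟩
      · rw [C.phi_mul, C.phi_mul, C.phi_mul, ← C.ev_det, hla, C.phi_one, ← hdM, hMeq, Matrix.det_smul, Fintype.card_fin]
        ring
      · have h2 := hMU (Pi.single 0 1) (Pi.single 0 1)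
        rw [hMeq, Matrix.smul_mulVec, hh_smul_left hF, hh_smul_right hF,
          show C.ev (candC q X Binv r k) *ᵥ Pi.single 0 1 = C.phiV (colC (candC q X Binv r k) 0) from by
            funext i; fin_cases i <;> simp [Coord.ev, Coord.phiV, colC], C.herm_phiV] at h2
        have h3 : Cfsg.hermForm 3 F q (Pi.single 0 (1 : F)) (Pi.single 0 1) = 1 := by
          simp [Cfsg.hermForm, Fin.sum_univ_three, C.pp.ne_zero]
        rw [h3, ← mul_assoc] at h2
        rw [C.phi_mul, C.phi_mul, C.phi_cj, hla, C.phi_one]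
        exact h2
    have h1 := List.all_eq_true.mp (List.all_eq_true.mp htab k (List.mem_range.mpr hk7)) r hr
    rw [hsu, Bool.not_true, Bool.false_or] at h1
    rw [hMeq]
    exact C.chk_sound h1 ha hv
  · intro h hh e
    obtain ⟨k, hk7, hk⟩ := hHn h hh
    have h2 : C.ev G * C.ev X = C.ev (powM q X k) * C.ev G := by
      rw [← e, hpow, ← hxv, ← Units.val_mul, ← Units.val_pow_eq_pow_val, ← Units.val_mul, hk]
    rw [← C.ev_mul, ← C.ev_mul] at h2
    have h3 := List.all_eq_true.mp hGX k (List.mem_range.mpr hk7)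
    rw [bne_iff_ne] at h3
    exact h3 (C.ev_inj (small_mm C.pp.pos _ _) (small_mm C.pp.pos _ _) h2)

theorem singer_three (hF : Fintype.card F = 3 ^ 2) {H : Subgroup (GL (Fin 3) F)}
    (hH : IsMaximalIn (Cfsg.GU 3 F 3 ⊓ specialLinear (Fin 3) F) H) {K : Subalgebra F (Matrix (Fin 3) (Fin 3) F)}
    (hK : IsFieldSubalgebra 3 K) (hadj : IsAdjointClosedFor (Cfsg.hermForm 3 F 3) K)
    (hle : H ≤ subalgebraNormalizer K) : False :=
  singer_core hF (Or.inl rfl) singer3_check hH hK hadj hle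

theorem singer_five (hF : Fintype.card F = 5 ^ 2) {H : Subgroup (GL (Fin 3) F)}
    (hH : IsMaximalIn (Cfsg.GU 3 F 5 ⊓ specialLinear (Fin 3) F) H) {K : Subalgebra F (Matrix (Fin 3) (Fin 3) F)}
    (hK : IsFieldSubalgebra 3 K) (hadj : IsAdjointClosedFor (Cfsg.hermForm 3 F 5) K)
    (hle : H ≤ subalgebraNormalizer K) : False :=
  singer_core hF (Or.inr rfl) singer5_check hH hK hadj hle

end Cfsg.Agent.GeomClasses.MaxList.U3
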